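import Cfsg.Agent.H63.AnDefs2

/-! Project AN: a twist of large type preserves the products of the transpositions. -/

set_option autoImplicit false
set_option linter.unusedSectionVars false

namespace Cfsg.Agent.H12.AnP6a

open Cfsg.Agent.H63.AN Subgroup
open Cfsg.Agent.H7.AA (d2 d2_conj d2_apply sign_d2)
open Equiv (swap Perm swap_apply_def)
open Equiv.Perm (sign mul_apply one_apply)

variable {α : Type} [Fintype α] [DecidableEq α] {p : Perm α}

theorem pp (h : p * p = 1) (x : α) : p (p x) = x := by rw [← mul_apply, h, one_apply]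

/-- products of transpositions of `p` -/
def P0 (p q : Perm α) : Prop := ∀ x, q x = x ∨ q x = p x

theorem P0.com (h : p * p = 1) {q : Perm α} (hq : P0 p q) (x : α) : q (p x) = p (q x) := by
  have h1 := hq x
  have h2 := hq (p x)
  have h3 := pp h x
  have h4 : q (p x) = q x → p x = x := fun e => q.injective e
  grind

theorem P0.mul (h : p * p = 1) {q r : Perm α} (hq : P0 p q) (hr : P0 p r) : P0 p (q * r) :=
  fun x => by
    have h1 := hq x
    have h2 := hr x
    have h3 := pp h x
    have h4 := hq.com h x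
    rw [mul_apply]
    grind

theorem P0.comm (h : p * p = 1) {q r : Perm α} (hq : P0 p q) (hr : P0 p r) : q * r = r * q := by
  ext x
  have h1 := hq x
  have h2 := hr x
  have h4 := hq.com h x
  have h5 := hr.com h x
  rw [mul_apply, mul_apply]
  grind

theorem P0.sq (h : p * p = 1) {q : Perm α} (hq : P0 p q) : q * q = 1 := by
  ext x
  have h1 := hq x
  have h3 := pp h x
  have h4 := hq.com h x
  rw [mul_apply, one_apply]
  grind

theorem P0.tr (h : p * p = 1) (x : α) : P0 p (swap x (p x)) := fun y => by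
  have h3 := pp h x
  rw [swap_apply_def]
  grind

theorem com_apply {b : Perm α} (hb : Commute b p) (x : α) : b (p x) = p (b x) := by
  rw [← mul_apply, hb.eq, mul_apply]

theorem P0.conj {q b : Perm α} (hq : P0 p q) (hb : Commute b p) : P0 p (b * q * b⁻¹) := fun x => by
  rw [mul_apply, mul_apply]
  rcases hq (b⁻¹ x) with e | e
  · exact .inl (by rw [e]; simp)
  · exact .inr (by rw [e, com_apply hb]; simp)

theorem PP_CA (h : p * p = 1) {q : Perm α} (hq : q ∈ PP p) : q ∈ CA p :=
  mem_CA.2 ⟨Equiv.ext fun x => P0.com h hq.2 x, hq.1⟩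

theorem PP_mul (h : p * p = 1) {q r : Perm α} (hq : q ∈ PP p) (hr : r ∈ PP p) : q * r ∈ PP p :=
  ⟨by rw [map_mul, hq.1, hr.1, one_mul], P0.mul h hq.2 hr.2⟩

theorem PP_conj {q b : Perm α} (hq : q ∈ PP p) (hb : Commute b p) : b * q * b⁻¹ ∈ PP p :=
  ⟨by rw [map_mul, map_mul, hq.1, mul_one, ← map_mul, mul_inv_cancel, map_one], P0.conj hq.2 hb⟩

theorem wc_PP (h : p * p = 1) {x y : α} (hx : p x ≠ x) (hy : p y ≠ y) : wc p x y ∈ PP p :=
  ⟨sign_d2 hx.symm hy.symm, (P0.tr h x).mul h (P0.tr h y)⟩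

theorem sc_sq (h : p * p = 1) {x y : α} (t : Two p x y) : sc p x y * sc p x y = 1 := by
  obtain ⟨h1, h2, h3, h4⟩ := t
  have := pp h x
  have := pp h y
  ext e
  simp only [sc, mul_apply, d2_apply, swap_apply_def, one_apply]
  grind

theorem sc_inv (h : p * p = 1) {x y : α} (t : Two p x y) : (sc p x y)⁻¹ = sc p x y :=
  inv_eq_of_mul_eq_one_right (sc_sq h t)

theorem sc_CA (h : p * p = 1) {x y : α} (t : Two p x y) : sc p x y ∈ CA p := by
  obtain ⟨h1, h2, h3, h4⟩ := t
  refine mem_CA.2 ⟨Equiv.ext fun e => ?_, sign_d2 h3.symm (p.injective.ne h3.symm)⟩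
  have := pp h x
  have := pp h y
  have := pp h e
  simp only [sc, mul_apply, d2_apply, swap_apply_def]
  grind

theorem sc_apply (h : p * p = 1) {x y : α} (t : Two p x y) : sc p x y x = y ∧ sc p x y y = x ∧
    sc p x y (p x) = p y ∧ sc p x y (p y) = p x ∧
    ∀ e, e ≠ x → e ≠ y → e ≠ p x → e ≠ p y → sc p x y e = e := by
  obtain ⟨h1, h2, h3, h4⟩ := t
  have := pp h x
  have := pp h y
  simp only [sc, d2_apply, swap_apply_def]
  grind

theorem wc_conj {b : Perm α} (hb : Commute b p) (x y : α) :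
    b * wc p x y * b⁻¹ = wc p (b x) (b y) := by
  rw [wc, d2_conj, com_apply hb, com_apply hb, wc]

theorem wc_mul (h : p * p = 1) (x y l : α) : wc p x y * wc p x l = wc p y l := by
  simp only [wc, d2]
  rw [(P0.tr h x).comm h (P0.tr h y), mul_assoc, Equiv.swap_mul_self_mul]

theorem exists_out {S : Finset α} (h : S.card < p.support.card) : ∃ x, p x ≠ x ∧ x ∉ S := by
  by_contra n
  push Not at n
  exact absurd (Finset.card_le_card fun x hx => n x (Equiv.Perm.mem_support.1 hx)) (not_le.2 h)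

/-- `PP p` is generated by the elements `wc p x y` -/
theorem PP_ind (h : p * p = 1) {F : Perm α → Prop} (h1 : F 1) (hm : ∀ a b, F a → F b → F (a * b))
    (hw : ∀ x y, Two p x y → F (wc p x y)) {q : Perm α} (hq : q ∈ PP p) : F q := by
  induction hn : q.support.card using Nat.strong_induction_on generalizing q with
  | _ n ih =>
    by_cases e : q = 1
    · exact e ▸ h1
    obtain ⟨x, hx⟩ : ∃ x, q x ≠ x := by
      by_contra k
      push Not at k
      exact e (Equiv.ext k)
    have qx := (hq.2 x).resolve_left hx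
    have cx := P0.com h hq.2 x
    have px := pp h x
    obtain ⟨y, hy, y1, y2⟩ : ∃ y, q y ≠ y ∧ y ≠ x ∧ y ≠ p x := by
      by_contra k
      push Not at k
      have : q = swap x (p x) := Equiv.ext fun y => by
        have := k y
        rw [swap_apply_def]
        grind
      have k2 := hq.1
      rw [this, Equiv.Perm.sign_swap (by grind)] at k2
      exact absurd k2 (by decide)
    have qy := (hq.2 y).resolve_left hy
    have cy := P0.com h hq.2 y
    have py := pp h y
    have t : Two p x y := ⟨by grind, by grind, y1, y2⟩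
    have w := wc_PP h t.1 t.2.1
    rw [show q = wc p x y * (wc p x y * q) by rw [← mul_assoc, P0.sq h w.2, one_mul]]
    refine hm _ _ (hw x y t) (ih _ (hn ▸ Finset.card_lt_card ⟨fun e he => ?_, fun k => ?_⟩)
      (PP_mul h w hq) rfl)
    · rw [Equiv.Perm.mem_support] at he ⊢
      simp only [wc, mul_apply, d2_apply, swap_apply_def] at he
      grind
    · have := k (Equiv.Perm.mem_support.2 hx)
      rw [Equiv.Perm.mem_support] at this
      simp only [wc, mul_apply, d2_apply, swap_apply_def] at this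
      grind

theorem all_wc (h : p * p = 1) {F : Perm α → Prop} (h1 : F 1) (hm : ∀ a b, F a → F b → F (a * b))
    (hc : ∀ a, ∀ b ∈ CA p, F a → F (b * a * b⁻¹)) {x y : α} (t : Two p x y) (hw : F (wc p x y))
    {q : Perm α} (hq : q ∈ PP p) : F q := by
  have k : ∀ l, p l ≠ l → F (wc p x l) := fun l hl => by
    have px := pp h x
    have py := pp h y
    by_cases e1 : l = x ∨ l = p x
    · rcases e1 with rfl | rfl
      · rwa [wc, d2, Equiv.swap_mul_self]
      · rwa [wc, d2, px, Equiv.swap_comm, Equiv.swap_mul_self]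
    by_cases e2 : l = y ∨ l = p y
    · rcases e2 with rfl | rfl
      · exact hw
      · rwa [wc, d2, py, Equiv.swap_comm (p y)]
    push Not at e1 e2
    have t' : Two p y l := ⟨t.2.1, hl, e2.1, e2.2⟩
    have s := sc_apply h t'
    have pl := pp h l
    obtain ⟨t1, t2, t3, t4⟩ := t
    have := hc _ _ (sc_CA h t') hw
    rwa [wc_conj (mem_CA.1 (sc_CA h t')).1, s.1,
      s.2.2.2.2 x (by grind) (by grind) (by grind) (by grind)] at this
  refine PP_ind h h1 hm (fun a b t' => ?_) hq
  rw [← wc_mul h x]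
  exact hm _ _ (k a t'.1) (k b t'.2.1)

theorem card_PP (h : p * p = 1) (h1 : p ≠ 1) :
    ∃ k, 2 * k = p.support.card ∧ 2 * (PP p).ncard = 2 ^ k := by
  classical
  let e := Fintype.equivFin α
  let R := Finset.univ.filter fun x => e x < e (p x)
  have mR : ∀ x, x ∈ R ↔ e x < e (p x) := fun x => by simp [R]
  have p2 := pp h
  refine ⟨R.card, ?_, ?_⟩
  · rw [← Finset.card_filter_add_card_filter_not (s := p.support) fun x => e x < e (p x), two_mul]
    congr 1
    · congr 1
      ext x
      simp only [mR, Finset.mem_filter, Equiv.Perm.mem_support]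
      exact ⟨fun k => ⟨fun k' => by simp [k'] at k, k⟩, fun k => k.2⟩
    · refine Finset.card_bij' (fun x _ => p x) (fun x _ => p x) (fun x hx => ?_) (fun x hx => ?_)
        (fun x _ => p2 x) fun x _ => p2 x
      · simp only [mR, Finset.mem_filter, Equiv.Perm.mem_support, p2] at hx ⊢
        exact ⟨fun k => by simp [← k] at hx, hx.le.not_gt⟩
      · simp only [mR, Finset.mem_filter, Equiv.Perm.mem_support, p2] at hx ⊢
        exact lt_of_le_of_ne (not_lt.1 hx.2) (e.injective.ne hx.1)
  obtain ⟨x0, hx0⟩ : ∃ x, p x ≠ x := by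
    by_contra k
    push Not at k
    exact h1 (Equiv.ext k)
  let A := Finset.univ.filter fun q : Perm α => P0 p q
  have c1 : A.card = 2 ^ R.card := by
    rw [← Finset.card_powerset]
    refine Finset.card_bij (fun q _ => R.filter fun x => q x ≠ x)
      (fun q _ => Finset.mem_powerset.2 (Finset.filter_subset _ _)) (fun q hq r hr k => ?_)
      fun S hS => ?_
    · have hq : P0 p q := (Finset.mem_filter.1 hq).2
      have hr : P0 p r := (Finset.mem_filter.1 hr).2
      have k1 : ∀ x ∈ R, q x = r x := fun x hx => by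
        have := Finset.ext_iff.1 k x
        simp only [Finset.mem_filter, hx, true_and] at this
        have := hq x
        have := hr x
        grind
      ext x
      rcases lt_trichotomy (e x) (e (p x)) with l | l | l
      · exact k1 x ((mR x).2 l)
      · have := e.injective l
        have := hq x
        have := hr x
        grind
      · have := k1 (p x) ((mR _).2 (by rwa [p2]))
        rw [hq.com h, hr.com h] at this
        exact p.injective this
    · have hS := Finset.mem_powerset.1 hS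
      have iv : Function.Involutive fun x => if x ∈ S ∨ p x ∈ S then p x else x := fun x => by
        have := p2 x
        grind
      refine ⟨iv.toPerm _, Finset.mem_filter.2 ⟨Finset.mem_univ _, fun x => ?_⟩, ?_⟩
      · rw [Function.Involutive.coe_toPerm]
        grind
      · ext x
        rw [Finset.mem_filter, Function.Involutive.coe_toPerm]
        have a1 : x ∈ S → e x < e (p x) := fun k => (mR x).1 (hS k)
        have a2 : p x ∈ S → e (p x) < e x := fun k => by simpa only [p2] using (mR _).1 (hS k)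
        have a3 := mR x
        grind
  have c2 : PP p = ↑(A.filter fun q => sign q = 1) := by
    ext q
    simp only [A, Finset.coe_filter, Finset.mem_filter, Finset.mem_univ, true_and, Set.mem_ofPred_eq]
    exact and_comm
  rw [c2, Set.ncard_coe_finset, ← c1,
    ← Finset.card_filter_add_card_filter_not (s := A) fun q => sign q = 1, two_mul]
  congr 1
  refine Finset.card_bij' (fun q _ => swap x0 (p x0) * q) (fun q _ => swap x0 (p x0) * q)
    (fun q hq => ?_) (fun q hq => ?_) (fun q _ => Equiv.swap_mul_self_mul _ _ _)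
    fun q _ => Equiv.swap_mul_self_mul _ _ _
  · simp only [A, Finset.mem_filter, Finset.mem_univ, true_and] at hq ⊢
    exact ⟨(P0.tr h x0).mul h hq.1, by
      rw [map_mul, hq.2, Equiv.Perm.sign_swap hx0.symm]; decide⟩
  · simp only [A, Finset.mem_filter, Finset.mem_univ, true_and] at hq ⊢
    exact ⟨(P0.tr h x0).mul h hq.1, by
      rw [map_mul, (Int.units_eq_one_or _).resolve_left hq.2, Equiv.Perm.sign_swap hx0.symm]
      decide⟩

/-- an abelian group of exponent two normalised by `CA p` -/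
structure QQ (p : Perm α) (Q : Perm α → Prop) : Prop where
  p2 : p * p = 1
  sq : ∀ c, Q c → c * c = 1
  cm : ∀ c, Q c → Commute c p
  mul : ∀ c d, Q c → Q d → Q (c * d)
  com : ∀ c d, Q c → Q d → c * d = d * c
  cj : ∀ c, ∀ b ∈ CA p, Q c → Q (b * c * b⁻¹)

variable {Q : Perm α → Prop}

theorem QQ.moves (h : QQ p Q) {c : Perm α} (hc : Q c) {x l : α} (t : Two p x (c x))
    (hl : p l ≠ l) : c l ≠ l ∧ c l ≠ p l := by
  by_contra n
  have c2 := pp (h.sq c hc)
  have cp := com_apply (h.cm c hc)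
  have p2 := pp h.p2
  obtain ⟨t1, t2, t3, t4⟩ := t
  have a1 := c2 x
  have a2 := c2 l
  have a3 := cp x
  have a4 := cp l
  have a5 := cp (c x)
  have a6 := p2 x
  have a7 := p2 l
  have a8 := p2 (c x)
  have t' : Two p (c x) l := ⟨t2, hl, by grind, by grind⟩
  obtain ⟨s1, s2, s3, s4, s5⟩ := sc_apply h.p2 t'
  have sx := s5 x (by grind) (by grind) (by grind) (by grind)
  have := congrArg (· x) (h.com _ _ hc (h.cj c _ (sc_CA h.p2 t') hc))
  simp only [sc_inv h.p2 t', mul_apply, sx, s1] at this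
  obtain ⟨-, -, t5, t6⟩ := t'
  grind

theorem QQ.col (h : QQ p Q) (h12 : 12 ≤ p.support.card) {c : Perm α} (hc : Q c) {x : α}
    (hx : p x ≠ x) : c x = x ∨ c x = p x := by
  by_contra n
  have c2 := pp (h.sq c hc)
  have cp := com_apply (h.cm c hc)
  have p2 := pp h.p2
  have t : Two p x (c x) := ⟨hx, by rw [← cp]; exact c.injective.ne hx, by grind, by grind⟩
  obtain ⟨l, hl, l1⟩ := exists_out (p := p) (S := {x, p x, c x, p (c x)})
    (lt_of_le_of_lt Finset.card_le_four (by omega))
  obtain ⟨m, hm, m1⟩ := exists_out (p := p)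
    (S := {x, p x, c x, p (c x)} ∪ {l, p l, c l, p (c l)})
    (lt_of_le_of_lt ((Finset.card_union_le _ _).trans
      (Nat.add_le_add Finset.card_le_four Finset.card_le_four)) (by omega))
  simp only [Finset.mem_union, Finset.mem_insert, Finset.mem_singleton, not_or] at l1 m1
  have ml := h.moves hc t hl
  obtain ⟨t1, t2, t3, t4⟩ := t
  have t' : Two p (c x) l := ⟨t2, hl, by grind, by grind⟩
  obtain ⟨s1, s2, s3, s4, s5⟩ := sc_apply h.p2 t'
  have a1 := c2 x
  have a2 := c2 l
  have a3 := cp x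
  have a4 := cp l
  have a5 := cp (c x)
  have a6 := p2 x
  have a7 := p2 l
  have a8 := p2 (c x)
  have a9 := c2 m
  have a10 := cp (c l)
  have sx := s5 x (by grind) (by grind) (by grind) (by grind)
  have sm := s5 m (by grind) (by grind) (by grind) (by grind)
  have sm' := s5 (c m) (by grind) (by grind) (by grind) (by grind)
  have he := h.mul _ _ hc (h.cj c _ (sc_CA h.p2 t') hc)
  have ex : (c * (sc p (c x) l * c * (sc p (c x) l)⁻¹)) x = c l := by
    simp only [sc_inv h.p2 t', mul_apply, sx, s1]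
  refine (h.moves he (x := x) (l := m) (by
    rw [ex]
    exact ⟨t1, by rw [← cp]; exact c.injective.ne hl, by grind, by grind⟩) hm).1 ?_
  simp only [sc_inv h.p2 t', mul_apply, sm, sm', a9]

theorem QQ.wc_mem (h : QQ p Q) {c : Perm α} (hc : Q c) {x y : α} (hx : p x ≠ x) (hy : p y ≠ y)
    (cx : c x = x) (cy : c y = p y) : Two p x y ∧ Q (wc p x y) := by
  have cp := com_apply (h.cm c hc)
  have p2 := pp h.p2
  have a1 := cp x
  have a2 := cp y
  have a3 := p2 x
  have a4 := p2 y
  have t : Two p x y := ⟨hx, hy, by grind, by grind⟩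
  refine ⟨t, ?_⟩
  have he := h.mul _ _ hc (h.cj c _ (sc_CA h.p2 t) hc)
  have e : c * (sc p x y * c * (sc p x y)⁻¹) = c * sc p x y * c⁻¹ * sc p x y := by
    rw [sc_inv h.p2 t, inv_eq_of_mul_eq_one_right (h.sq c hc)]; group
  rw [e, sc, d2_conj, cx, cy, a1, a2, cx, cy, a4] at he
  convert he using 1
  obtain ⟨t1, t2, t3, t4⟩ := t
  ext e
  simp only [wc, mul_apply, d2_apply, swap_apply_def]
  grind

theorem main (p p' : Perm α) (φ φ' : Perm α → Perm α) (T : ℕ → Prop) (h : Tw p p' φ φ' T)
    (h12 : 12 ≤ p.support.card) (hle : p.support.card ≤ p'.support.card) :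
    p'.support.card = p.support.card ∧ φ '' PP p = PP p' := by
  obtain ⟨h, h'⟩ := h
  let Φ : CA p →* Perm α := MonoidHom.mk' (fun a => φ a) fun a b => h.mul a a.2 b b.2
  have φ1 : φ 1 = 1 := Φ.map_one
  have φi : ∀ b ∈ CA p, φ b⁻¹ = (φ b)⁻¹ := fun b hb => Φ.map_inv ⟨b, hb⟩
  have ca : ∀ {q}, q ∈ PP p → q ∈ CA p := PP_CA h.p2
  have qq : QQ p' (· ∈ φ '' PP p) :=
    { p2 := h'.p2
      sq := by rintro _ ⟨a, ha, rfl⟩; rw [← h.mul a (ca ha) a (ca ha), P0.sq h.p2 ha.2, φ1]
      cm := by rintro _ ⟨a, ha, rfl⟩; exact h.cm a (ca ha)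
      mul := by
        rintro _ _ ⟨a, ha, rfl⟩ ⟨b, hb, rfl⟩
        exact ⟨_, PP_mul h.p2 ha hb, h.mul a (ca ha) b (ca hb)⟩
      com := by
        rintro _ _ ⟨a, ha, rfl⟩ ⟨b, hb, rfl⟩
        rw [← h.mul a (ca ha) b (ca hb), ← h.mul b (ca hb) a (ca ha), P0.comm h.p2 ha.2 hb.2]
      cj := by
        rintro _ b hb ⟨a, ha, rfl⟩
        exact ⟨_, PP_conj ha (h'.cm b hb), h.cp a (ca ha) b hb⟩ }
  have one : (1 : Perm α) ∈ PP p := ⟨map_one _, fun _ => .inl rfl⟩
  obtain ⟨c, hc, x, y, hx, hy, cx, cy⟩ : ∃ c ∈ φ '' PP p, ∃ x y, p' x ≠ x ∧ p' y ≠ y ∧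
      c x = x ∧ c y = p' y := by
    by_contra n
    push Not at n
    have al : ∀ q ∈ PP p, (∀ x, p' x ≠ x → φ q x = x) ∨ ∀ x, p' x ≠ x → φ q x = p' x :=
      fun q hq => by
        by_contra k
        push Not at k
        obtain ⟨⟨y, hy, k1⟩, x, hx, k2⟩ := k
        exact n _ ⟨q, hq, rfl⟩ x y hx hy
          ((qq.col (h12.trans hle) ⟨q, hq, rfl⟩ hx).resolve_right k2)
          ((qq.col (h12.trans hle) ⟨q, hq, rfl⟩ hy).resolve_left k1)
    have p2 := pp h'.p2
    have br : ∀ q ∈ PP p, ∀ b ∈ CA p, ∀ x, p' x ≠ x → φ (b * q * b⁻¹ * q) x = x :=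
      fun q hq b hb x hx => by
        have cb := com_apply (h.cm b hb).inv_left
        rw [h.mul _ (ca (PP_conj hq (mem_CA.1 hb).1)) _ (ca hq),
          h.mul _ (mul_mem hb (ca hq)) _ (inv_mem hb), h.mul _ hb _ (ca hq), φi b hb]
        simp only [mul_apply]
        rcases al q hq with k | k
        · rw [k x hx, k _ (by rw [← cb]; exact (φ b)⁻¹.injective.ne hx)]; simp
        · rw [k x hx, k _ (by
            rw [← cb, p2]; exact (φ b)⁻¹.injective.ne hx.symm), ← cb, p2]; simp
    have := PP_ind h.p2 (F := fun q => q ∈ PP p ∧ ∀ x, p' x ≠ x → φ q x = x)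
      ⟨one, fun x _ => by rw [φ1, one_apply]⟩
      (fun a b ha hb => ⟨PP_mul h.p2 ha.1 hb.1, fun x hx => by
        rw [h.mul a (ca ha.1) b (ca hb.1), mul_apply, hb.2 x hx, ha.2 x hx]⟩)
      (fun j l t => ⟨wc_PP h.p2 t.1 t.2.1, by
        obtain ⟨i, hi, i1⟩ := exists_out (p := p) (S := {j, p j, l, p l})
          (lt_of_le_of_lt Finset.card_le_four (by omega))
        simp only [Finset.mem_insert, Finset.mem_singleton, not_or] at i1
        have s := sc_apply h.p2 t
        have := br _ (wc_PP h.p2 hi t.2.1) _ (sc_CA h.p2 t)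
        rwa [wc_conj (mem_CA.1 (sc_CA h.p2 t)).1, s.2.1,
          s.2.2.2.2 i i1.1 i1.2.2.1 i1.2.1 i1.2.2.2, wc_mul h.p2] at this⟩)
      (q := p) ⟨h.pe, fun _ => .inr rfl⟩
    refine h'.p1 (Equiv.ext fun x => ?_)
    by_contra k
    exact k (h.pp ▸ this.2 x k)
  obtain ⟨t, hw⟩ := qq.wc_mem hc hx hy cx cy
  have sub : PP p' ⊆ φ '' PP p := fun q hq =>
    all_wc h'.p2 (F := (· ∈ φ '' PP p)) ⟨1, one, φ1⟩ qq.mul qq.cj t hw hq
  obtain ⟨k, k1, k2⟩ := card_PP h.p2 h.p1
  obtain ⟨k', k1', k2'⟩ := card_PP h'.p2 h'.p1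
  have l1 : (φ '' PP p).ncard ≤ (PP p).ncard := Set.ncard_image_le (Set.toFinite _)
  have l2 := Set.ncard_le_ncard sub (Set.toFinite _)
  have l3 : k' ≤ k := (Nat.pow_le_pow_iff_right one_lt_two).1 (by omega)
  have e : k' = k := by omega
  subst e
  exact ⟨by omega, (Set.eq_of_subset_of_ncard_le sub (by omega) (Set.toFinite _)).symm⟩

/-- **P6A** -/
theorem p6a (_kp : KpStmt) : P6aStmt := fun _ _ _ _ p p' φ φ' T h h12 hle =>
  main p p' φ φ' T h h12 hle

end Cfsg.Agent.H12.AnP6a
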