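import Mathlib
import Cfsg.Agent.H12.Unitary
import Cfsg.Agent.H13.Rep

/-!
# Blichfeldt's theorem on elements with eigenvalues within sixty degrees of one of them
-/

set_option autoImplicit false

namespace Cfsg.Agent.H12

open Cfsg Cfsg.Agent.H11
open scoped ComplexConjugate InnerProductSpace commutatorElement

universe u

/-- The elements mapping a subspace into itself. -/
def stabSub {G : Type*} [Group G] [Finite G] {E : Type*} [AddCommGroup E] [Module ℂ E]
    (ρ : Representation ℂ G E) (W : Submodule ℂ E) : Subgroup G where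
  carrier := {g | ∀ w ∈ W, ρ g w ∈ W}
  one_mem' := by simp
  mul_mem' := fun ha hb w hw => by simpa using ha _ (hb w hw)
  inv_mem' := fun {g} hg => by
    rw [inv_eq_pow_orderOf_sub_one]
    induction orderOf g - 1 with
    | zero => simp
    | succ k ih => exact fun w hw => by simpa [pow_succ] using ih _ (hg w hw)

section

variable {G : Type*} [Group G] [Finite G] {E : Type*} [NormedAddCommGroup E]
  [InnerProductSpace ℂ E] [FiniteDimensional ℂ E] {ρ : Representation ℂ G E}
  (hρ : ∀ g x y, ⟪ρ g x, ρ g y⟫_ℂ = ⟪x, y⟫_ℂ)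
include hρ

/-- Blichfeldt: if all eigenvalues of `x` are at distance less than one from `l`, then all
conjugates of `x` stabilise the `l`-eigenspace of `x`. -/
theorem conj_mem_stabSub {x : G} {l : ℂ} (hl : ‖l‖ = 1)
    (hx : ∀ v, v ≠ 0 → ‖ρ x v - l • v‖ < ‖v‖) (g : G) :
    g⁻¹ * x * g ∈ stabSub ρ (Module.End.eigenspace (ρ x) l) := by
  classical
  set W := Module.End.eigenspace (ρ x) l with hW
  have hmem : ∀ w, w ∈ W ↔ ρ x w = l • w := fun w => Module.End.mem_eigenspace_iff
  let b := Module.finBasis ℂ W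
  let d : G → ℝ := fun g => ∑ j, ‖Wᗮ.starProjection (ρ g (b j))‖
  have hzero : ∀ v, Wᗮ.starProjection v = 0 ↔ v ∈ W := fun v => by
    rw [Submodule.starProjection_apply_eq_zero_iff, Submodule.orthogonal_orthogonal]
  have hd0 : ∀ g, g ∉ stabSub ρ W → ∃ j, Wᗮ.starProjection (ρ g (b j)) ≠ 0 := fun g hg => by
    by_contra! h
    refine hg fun w hw => ?_
    have := congrArg Subtype.val (b.sum_repr ⟨w, hw⟩)
    simp only [AddSubmonoidClass.coe_finset_sum, SetLike.val_smul] at this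
    rw [← this, map_sum]
    exact W.sum_mem fun j _ => by rw [map_smul]; exact W.smul_mem _ ((hzero _).1 (h j))
  have key : ∀ g, ∀ w ∈ W, ‖Wᗮ.starProjection (ρ (g⁻¹ * x * g) w)‖ ≤
      ‖ρ x (Wᗮ.starProjection (ρ g w)) - l • Wᗮ.starProjection (ρ g w)‖ := fun g w hw => by
    have h1 : Wᗮ.starProjection (ρ (g⁻¹ * x * g) w) =
        Wᗮ.starProjection (ρ (g⁻¹ * x * g) w - l • w) := by
      rw [map_sub, (hzero _).2 (W.smul_mem l hw), sub_zero]
    have h2 : ρ g (ρ (g⁻¹ * x * g) w - l • w) =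
        ρ x (Wᗮ.starProjection (ρ g w)) - l • Wᗮ.starProjection (ρ g w) := by
      rw [Submodule.starProjection_orthogonal_val, map_sub, map_sub,
        (hmem _).1 (W.starProjection_apply_mem _), ← Module.End.mul_apply, ← map_mul, map_smul,
        smul_sub, show g * (g⁻¹ * x * g) = x * g by group, map_mul, Module.End.mul_apply]
      abel
    rw [h1, ← h2, norm_rep hρ]
    exact Submodule.norm_starProjection_apply_le _ _
  have hle : ∀ v, ‖ρ x v - l • v‖ ≤ ‖v‖ := fun v => by
    by_cases h : v = 0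
    · simp [h]
    · exact (hx v h).le
  by_contra hg
  obtain ⟨g, hg, hmin⟩ := Set.exists_min_image {g | g⁻¹ * x * g ∉ stabSub ρ W} d
    (Set.toFinite _) ⟨g, hg⟩
  set h := g⁻¹ * x * g with hh
  have hlt : d h < d g := by
    obtain ⟨j, hj⟩ := hd0 _ hg
    refine Finset.sum_lt_sum (fun j _ => (key g _ (b j).2).trans (hle _))
      ⟨j, Finset.mem_univ _, (key g _ (b j).2).trans_lt (hx _ fun h0 => hj ?_)⟩
    simpa [h0] using key g _ (b j).2
  have h1 : h⁻¹ * x * h ∈ stabSub ρ W := by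
    by_contra h1
    exact (hmin h h1).not_gt hlt
  refine hg (inv_mem_iff.1 fun w hw => (hzero _).1 ?_)
  set r := Wᗮ.starProjection (ρ h⁻¹ w) with hr
  have hrW : r ∈ Wᗮ := Wᗮ.starProjection_apply_mem _
  have h2 : ρ (h⁻¹ * x * h) r ∈ Wᗮ := (Submodule.mem_orthogonal' _ _).2 fun u hu => by
    rw [inner_rep_left hρ]
    exact (Submodule.mem_orthogonal' _ _).1 hrW _ (inv_mem h1 u hu)
  have h3 : ρ (h⁻¹ * x * h) r - l • r ∈ W := by
    have h4 : ρ (h⁻¹ * x * h) (ρ h⁻¹ w) = l • ρ h⁻¹ w := by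
      rw [← Module.End.mul_apply, ← map_mul, mul_inv_cancel_right, map_mul, Module.End.mul_apply,
        (hmem w).1 hw, map_smul]
    rw [hr, Submodule.starProjection_orthogonal_val, map_sub, h4, smul_sub, sub_sub_sub_cancel_left]
    exact W.sub_mem (W.smul_mem _ (W.starProjection_apply_mem _))
      (h1 _ (W.starProjection_apply_mem _))
  have h4 : ρ (h⁻¹ * x * h) r = l • r := sub_eq_zero.1 ((Submodule.mem_bot ℂ).1
    (W.orthogonal_disjoint.le_bot ⟨h3, Wᗮ.sub_mem h2 (Wᗮ.smul_mem _ hrW)⟩))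
  have h5 : ρ h r ∈ W := by
    rw [hmem, ← map_smul, ← h4, ← Module.End.mul_apply, ← Module.End.mul_apply, ← map_mul,
      ← map_mul, show h * (h⁻¹ * x * h) = x * h by group]
  by_contra h0
  have h6 := hx (ρ g r) fun h6 => h0 (by simpa [h6] using (norm_rep hρ g r).symm)
  rw [← map_smul, ← Module.End.mul_apply, ← map_mul, show x * g = g * h by rw [hh]; group, map_mul,
    Module.End.mul_apply, ← map_sub, norm_rep hρ, norm_rep hρ] at h6
  have h7 := @norm_sub_sq ℂ _ _ _ _ (ρ h r) (l • r)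
  rw [inner_smul_right, (Submodule.mem_orthogonal _ _).1 hrW _ h5, norm_smul, hl, norm_rep hρ] at h7
  simp only [mul_zero, map_zero, sub_zero, one_mul] at h7
  nlinarith [norm_nonneg r, norm_nonneg (ρ h r - l • r)]

end

/-- The six arcs of length `π/3`. -/
theorem exists_cell_six : ∃ c : ℂ → Fin 6, ∀ μ ν : ℂ, ‖μ‖ = 1 → ‖ν‖ = 1 → c μ = c ν →
    ‖μ - ν‖ < 1 := by
  have hπ := Real.pi_pos
  have hlt : ∀ μ : ℂ, ⌊(Real.pi - μ.arg) * (3 / Real.pi)⌋₊ < 6 := fun μ => by
    have h1 := Complex.neg_pi_lt_arg μ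
    have h2 := Complex.arg_le_pi μ
    rw [Nat.floor_lt (by positivity)]
    · calc (Real.pi - μ.arg) * (3 / Real.pi) < (2 * Real.pi) * (3 / Real.pi) :=
            mul_lt_mul_of_pos_right (by linarith) (by positivity)
        _ = (6 : ℕ) := by field_simp; norm_num
  refine ⟨fun μ => ⟨_, hlt μ⟩, fun μ ν hμ hν h => ?_⟩
  simp only [Fin.mk.injEq] at h
  have h1 := Nat.lt_floor_add_one ((Real.pi - μ.arg) * (3 / Real.pi))
  have h2 := Nat.lt_floor_add_one ((Real.pi - ν.arg) * (3 / Real.pi))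
  have h3 := Nat.floor_le (show 0 ≤ (Real.pi - μ.arg) * (3 / Real.pi) by
    have := Complex.arg_le_pi μ
    positivity)
  have h4 := Nat.floor_le (show 0 ≤ (Real.pi - ν.arg) * (3 / Real.pi) by
    have := Complex.arg_le_pi ν
    positivity)
  rw [h] at h1 h3
  have h5 : |(ν.arg - μ.arg) * (3 / Real.pi)| < 1 := by
    rw [abs_lt]
    constructor <;> nlinarith
  rw [abs_mul, abs_of_pos (show 0 < 3 / Real.pi by positivity), ← lt_div_iff₀ (by positivity)]
    at h5
  rw [show 1 / (3 / Real.pi) = Real.pi / 3 by field_simp] at h5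
  have hcos : 1 / 2 < Real.cos (ν.arg - μ.arg) := by
    rw [← Real.cos_pi_div_three, ← Real.cos_abs (ν.arg - μ.arg)]
    exact Real.cos_lt_cos_of_nonneg_of_le_pi (abs_nonneg _) (by linarith) h5
  rw [Real.cos_sub, Complex.cos_arg (fun h => by simp [h] at hν),
    Complex.cos_arg (fun h => by simp [h] at hμ), Complex.sin_arg, Complex.sin_arg, hμ, hν] at hcos
  have e1 := Complex.sq_norm μ
  have e2 := Complex.sq_norm ν
  rw [hμ, Complex.normSq_apply] at e1
  rw [hν, Complex.normSq_apply] at e2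
  rw [← sq_lt_one_iff₀ (norm_nonneg _), Complex.sq_norm, Complex.normSq_apply]
  simp only [Complex.sub_re, Complex.sub_im]
  nlinarith

/-- Character form of the theorems of Frobenius and Blichfeldt on short arcs. -/
theorem exists_eigenvalues_arc {G : Type u} [Group G] [Finite G] {χ : G → ℂ}
    (hχ : IsCharacter G χ) (x : G) : ∃ (n : ℕ) (μ : Fin n → ℂ), (∀ i, μ i ^ orderOf x = 1) ∧
      (∀ k, χ (x ^ k) = ∑ i, μ i ^ k) ∧
      (∀ k, (∀ i j, ‖μ i ^ k - μ j ^ k‖ < 1) → ∀ g, ⁅x ^ k, g⁻¹ * x ^ k * g⁆ ∈ charKer χ) ∧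
      (IsIrrCharacter G χ → ∀ k j, (∀ i, ‖μ i ^ k - μ j ^ k‖ < 1) → ∃ T : Subgroup G,
        (∀ g, g⁻¹ * x ^ k * g ∈ T) ∧ (T = ⊤ → x ^ k ∈ charCenter χ)) := by
  obtain ⟨E, _, _, _, ρ, rfl, hρ⟩ := exists_unitary_rep hχ
  obtain ⟨b, hb⟩ := exists_orthonormalBasis_eigen hρ {x} (by rintro _ rfl _ rfl; rfl)
  choose μ hμ using hb x rfl
  have hk : ∀ k i, ρ (x ^ k) (b i) = μ i ^ k • b i := fun k i => by
    induction k with
    | zero => simp
    | succ k ih => rw [pow_succ, map_mul, Module.End.mul_apply, hμ, map_smul, ih, smul_smul, pow_succ']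
  have key : ∀ k j, (∀ i, ‖μ i ^ k - μ j ^ k‖ < 1) → ∀ g, g⁻¹ * x ^ k * g ∈
      stabSub ρ (Module.End.eigenspace (ρ (x ^ k)) (μ j ^ k)) := fun k j h g =>
    conj_mem_stabSub hρ (norm_eigenvalue hρ (b.norm_eq_one j) (hk k j)) (fun v hv => by
      have := norm_apply_sq_lt_of_eigen b (f := ρ (x ^ k) - μ j ^ k • 1)
        (μ := fun i => μ i ^ k - μ j ^ k) (κ := 1) (fun i => by simp [hk, sub_smul, -map_pow])
        (fun i => (sq_lt_one_iff₀ (norm_nonneg _)).2 (h i)) hv
      rw [one_mul, sq_lt_sq₀ (norm_nonneg _) (norm_nonneg _)] at this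
      simpa [-map_pow] using this) g
  refine ⟨_, μ, fun i => ?_, fun k => ?_, fun k h g => ?_, fun hirr k j h => ⟨_, key k j h, fun hT => ?_⟩⟩
  · have := hk (orderOf x) i
    rw [pow_orderOf_eq_one, map_one, Module.End.one_apply] at this
    exact smul_left_injective ℂ (b.orthonormal.ne_zero i) (this.symm.trans (one_smul _ _).symm)
  · rw [Representation.character, LinearMap.trace_eq_sum_inner _ b]
    simp [hk, inner_smul_right, -map_pow]
  · rw [mem_charKer_iff hχ, ρ.char_one, character_eq_finrank_iff]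
    have : ρ (x ^ k) * ρ (g⁻¹ * x ^ k * g) = ρ (g⁻¹ * x ^ k * g) * ρ (x ^ k) :=
      b.toBasis.ext fun j => by
        rw [OrthonormalBasis.coe_toBasis, Module.End.mul_apply, Module.End.mul_apply, hk, map_smul]
        exact Module.End.mem_eigenspace_iff.1 (key k j (fun i => h i j) g _
          (Module.End.mem_eigenspace_iff.2 (hk k j)))
    rw [commutatorElement_def, map_mul, map_mul, map_mul, this, mul_assoc (ρ _), ← map_mul,
      mul_inv_cancel, map_one, mul_one, ← map_mul, mul_inv_cancel, map_one]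
    rfl
  · rcases ((H13.isIrreducible_iff ρ).1 ((isIrreducible_iff_isIrrCharacter ρ).2 hirr)).2 _
      (fun g => hT.ge (Subgroup.mem_top g)) with h1 | h1
    · exact absurd ((Submodule.mem_bot ℂ).1 (h1 ▸ Module.End.mem_eigenspace_iff.2 (hk k j)))
        (b.orthonormal.ne_zero j)
    · exact (mem_charCenter_character_iff ρ).2 ⟨μ j ^ k, LinearMap.ext fun v =>
        Module.End.mem_eigenspace_iff.1 (h1.ge Submodule.mem_top)⟩

/-- Weighted power sums determine the weights. -/
theorem sum_filter_eq_of_pow_sums {ι κ : Type*} [Fintype ι] [Fintype κ] (μ c : ι → ℂ)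
    (ν d : κ → ℂ) (h : ∀ k : ℕ, ∑ i, c i * μ i ^ k = ∑ j, d j * ν j ^ k) (ζ : ℂ) :
    ∑ i, (if μ i = ζ then c i else 0) = ∑ j, (if ν j = ζ then d j else 0) := by
  classical
  have h1 : ∀ f : Polynomial ℂ, ∑ i, c i * f.eval (μ i) = ∑ j, d j * f.eval (ν j) := fun f => by
    simp only [Polynomial.eval_eq_sum_range, Finset.mul_sum]
    rw [Finset.sum_comm, Finset.sum_comm (s := Finset.univ)]
    refine Finset.sum_congr rfl fun k _ => ?_
    simp only [mul_left_comm _ (f.coeff k), ← Finset.mul_sum, h]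
  set S := (Finset.univ.image μ ∪ Finset.univ.image ν).erase ζ with hS
  have h2 := h1 (∏ a ∈ S, (Polynomial.X - Polynomial.C a))
  simp only [Polynomial.eval_prod, Polynomial.eval_sub, Polynomial.eval_X, Polynomial.eval_C] at h2
  have h3 : ∏ a ∈ S, (ζ - a) ≠ 0 :=
    Finset.prod_ne_zero_iff.2 fun a ha => sub_ne_zero.2 (Finset.mem_erase.1 ha).1.symm
  refine mul_right_cancel₀ h3 ?_
  rw [Finset.sum_mul, Finset.sum_mul]
  convert h2 using 2 with i _ j _
  · split_ifs with h
    · rw [h]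
    · rw [Finset.prod_eq_zero (i := μ i) (by simp [hS, h]) (sub_self _), zero_mul, mul_zero]
  · split_ifs with h
    · rw [h]
    · rw [Finset.prod_eq_zero (i := ν j) (by simp [hS, h]) (sub_self _), zero_mul, mul_zero]

end Cfsg.Agent.H12
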