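import Mathlib

/-!
# Jordan's class equation argument, in abstract form
-/

set_option autoImplicit false

namespace Cfsg.Agent.H12

open scoped Pointwise

universe u

theorem exists_bound_egyptian (k : ℕ) : ∀ D : ℕ, 0 < D → ∃ B : ℕ, ∀ (ι : Type u) (s : Finset ι)
    (x : ι → ℕ) (x₀ : ℕ), s.card ≤ k → 0 < x₀ → (∀ i ∈ s, 0 < x i ∧ x i < x₀) →
    (∃ z : ℤ, (D : ℚ) * (∑ i ∈ s, (x i : ℚ)⁻¹ - (x₀ : ℚ)⁻¹) = z) → x₀ ≤ B := by
  have hemp : ∀ D : ℕ, 0 < D → ∀ x₀ : ℕ, 0 < x₀ → (∃ z : ℤ, (D : ℚ) * (0 - (x₀ : ℚ)⁻¹) = z) →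
      x₀ ≤ D := by
    rintro D hD x₀ hx ⟨z, hz⟩
    have h1 : (D : ℚ) = -z * x₀ := by
      rw [← hz]
      field_simp
      ring
    have h2 : (D : ℤ) = -z * x₀ := by exact_mod_cast h1
    exact Nat.le_of_dvd hD (Int.natCast_dvd_natCast.1 ⟨-z, by rw [h2, mul_comm]⟩)
  induction k with
  | zero =>
    refine fun D hD => ⟨D, fun ι s x x₀ hs hx _ h => ?_⟩
    rw [Finset.card_eq_zero.1 (Nat.le_zero.1 hs), Finset.sum_empty] at h
    exact hemp D hD x₀ hx h
  | succ k ih =>
    intro D hD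
    obtain ⟨B, hB⟩ := ih (D * ((k + 1) * D).factorial) (Nat.mul_pos hD (Nat.factorial_pos _))
    refine ⟨max D B, fun ι s x x₀ hs hx hlt h => ?_⟩
    classical
    rcases s.eq_empty_or_nonempty with rfl | hne
    · rw [Finset.sum_empty] at h
      exact (hemp D hD x₀ hx h).trans (le_max_left _ _)
    obtain ⟨i, hi, hmin⟩ := Finset.exists_min_image s x hne
    obtain ⟨z, hz⟩ := h
    have hxi : (0 : ℚ) < x i := by exact_mod_cast (hlt i hi).1
    have hx₀ : (0 : ℚ) < x₀ := by exact_mod_cast hx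
    have hD' : (0 : ℚ) < D := by exact_mod_cast hD
    have h1 : (x₀ : ℚ)⁻¹ < ∑ j ∈ s, (x j : ℚ)⁻¹ :=
      (inv_strictAnti₀ hxi (by exact_mod_cast (hlt i hi).2)).trans_le
        (Finset.single_le_sum (f := fun j => (x j : ℚ)⁻¹) (fun j _ => by positivity) hi)
    have h2 : (1 : ℚ) ≤ z := by
      have : (0 : ℚ) < z := hz ▸ mul_pos hD' (sub_pos.2 h1)
      exact_mod_cast (show (0 : ℤ) < z by exact_mod_cast this)
    have h3 : ∑ j ∈ s, (x j : ℚ)⁻¹ ≤ (k + 1) * (x i : ℚ)⁻¹ := by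
      refine (Finset.sum_le_card_nsmul s _ (x i : ℚ)⁻¹ fun j hj =>
        inv_anti₀ hxi (by exact_mod_cast hmin j hj)).trans ?_
      rw [nsmul_eq_mul]
      exact mul_le_mul_of_nonneg_right (by exact_mod_cast hs) (by positivity)
    have h4 : x i ≤ (k + 1) * D := by
      have h5 : (1 : ℚ) ≤ D * ((k + 1) * (x i : ℚ)⁻¹) :=
        h2.trans (hz ▸ mul_le_mul_of_nonneg_left
          ((sub_le_self _ (by positivity)).trans h3) hD'.le)
      rw [← mul_assoc, ← div_eq_mul_inv, one_le_div hxi] at h5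
      exact_mod_cast (show (x i : ℚ) ≤ (k + 1) * D by linarith)
    obtain ⟨c, hc⟩ := Nat.dvd_factorial (hlt i hi).1 h4
    refine (hB ι (s.erase i) x x₀ (by rw [Finset.card_erase_of_mem hi]; omega) hx
      (fun j hj => hlt j (Finset.mem_of_mem_erase hj))
      ⟨x i * c * z - D * c, ?_⟩).trans (le_max_right _ _)
    rw [← Finset.add_sum_erase _ _ hi] at hz
    rw [hc]
    push_cast
    rw [← hz]
    field_simp
    ring

/-- Summing an invariant function over an invariant finite set orbit by orbit. -/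
theorem exists_sum_eq_sum_index {X Y : Type*} [Group X] [MulAction X Y] (s : Finset Y)
    (hs : ∀ g : X, ∀ y ∈ s, g • y ∈ s) :
    ∃ T ⊆ s, ∀ f : Y → ℚ, (∀ g : X, ∀ y, f (g • y) = f y) →
      ∑ y ∈ s, f y = ∑ y ∈ T, (MulAction.stabilizer X y).index * f y := by
  classical
  refine ⟨s.filter fun y => (Quotient.mk (MulAction.orbitRel X Y) y).out = y,
    Finset.filter_subset _ _, fun f hf => ?_⟩
  have hout : ∀ y, ∃ g : X, g • y = (Quotient.mk (MulAction.orbitRel X Y) y).out := fun y =>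
    MulAction.orbitRel_apply.1 (Quotient.mk_out (s := MulAction.orbitRel X Y) y)
  rw [← Finset.sum_fiberwise_of_maps_to
    (g := fun y => (Quotient.mk (MulAction.orbitRel X Y) y).out)
    (t := s.filter fun y => (Quotient.mk (MulAction.orbitRel X Y) y).out = y) fun y hy => by
      obtain ⟨g, hg⟩ := hout y
      exact Finset.mem_filter.2 ⟨hg ▸ hs g y hy, by rw [Quotient.out_eq]⟩]
  refine Finset.sum_congr rfl fun t ht => ?_
  obtain ⟨ht1, ht2⟩ := Finset.mem_filter.1 ht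
  rw [Finset.sum_congr rfl (g := fun _ => f t) fun y hy => by
    obtain ⟨g, hg⟩ := hout y
    rw [← (Finset.mem_filter.1 hy).2, ← hg, hf], Finset.sum_const, nsmul_eq_mul,
    MulAction.index_stabilizer, ← Set.ncard_coe_finset]
  congr 3
  ext y
  simp only [Finset.coe_filter, Set.mem_setOf_eq]
  constructor
  · rintro ⟨-, h⟩
    obtain ⟨g, hg⟩ := hout y
    exact ⟨g⁻¹, by simp only [← h, ← hg, inv_smul_smul]⟩
  · rintro ⟨g, rfl⟩
    refine ⟨hs g t ht1, ?_⟩
    rw [← ht2]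
    congr 1
    rw [ht2]
    exact Quotient.sound (MulAction.orbitRel_apply.2 ⟨g, rfl⟩)

theorem card_dvd_card_of_mul_mem {X : Type*} [Group X] [Finite X] (T : Subgroup X) (s : Finset X)
    (hs : ∀ t ∈ T, ∀ y ∈ s, t * y ∈ s) : Nat.card T ∣ s.card := by
  obtain ⟨R, -, h⟩ := exists_sum_eq_sum_index (X := T) s fun t y hy => hs t t.2 y hy
  have h1 := h (fun _ => 1) fun _ _ => rfl
  rw [Finset.sum_const, nsmul_eq_mul, mul_one, Finset.sum_congr rfl (g := fun _ =>
    (Nat.card T : ℚ)) fun y _ => by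
      rw [mul_one, show MulAction.stabilizer T y = ⊥ from eq_bot_iff.2 fun t ht =>
        Subtype.ext (mul_eq_right.1 ht), Subgroup.index_bot],
    Finset.sum_const, nsmul_eq_mul] at h1
  exact ⟨R.card, by exact_mod_cast h1.trans (mul_comm _ _)⟩

/-- `T` is the greatest fan in `H`, and has index at most `N`. -/
def GreatestFan {X : Type*} [Group X] (Fan : Subgroup X → Prop) (N : ℕ) (H T : Subgroup X) : Prop :=
  T ≤ H ∧ Fan T ∧ (∀ F ≤ H, Fan F → F ≤ T) ∧ T.relIndex H ≤ N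

/-- Jordan's class equation argument. -/
theorem exists_bound_of_fans (N : ℕ) : ∃ B : ℕ, ∀ (X : Type u) [Group X] [Finite X]
    (Fan : Subgroup X → Prop), (∀ F, Fan F → ∀ a ∈ F, ∀ b ∈ F, a * b = b * a) →
    (∀ F (g : X), Fan F → Fan (MulAut.conj g • F)) →
    (∀ x : X, x ≠ 1 → ∃ T, GreatestFan Fan N (Subgroup.centralizer {x}) T) →
    (∀ F, Fan F → F ≠ ⊥ → ∃ T, GreatestFan Fan N (Subgroup.normalizer (F : Set X)) T) →
    Nat.card X ≤ B ∨ ∃ F, Fan F ∧ F ≠ ⊥ ∧ F.Normal := by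
  obtain ⟨B, hB⟩ := exists_bound_egyptian.{u} (2 * N) N.factorial (Nat.factorial_pos N)
  refine ⟨B, fun X _ _ Fan hab hconj hC hN => ?_⟩
  classical
  have := Fintype.ofFinite X
  have := Fintype.ofFinite (Subgroup X)
  refine or_iff_not_imp_right.2 fun hno => ?_
  have hle : ∀ {F F' : Subgroup X}, F ≤ F' → Fan F' → F' ≤ Subgroup.normalizer (F : Set X) :=
    fun h h' a ha => Subgroup.centralizer_le_normalizer _ fun b hb => hab _ h' b (h hb) a ha
  let Max : Subgroup X → Prop := fun T => Fan T ∧ T ≠ ⊥ ∧ ∀ F, Fan F → T ≤ F → F = T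
  have hmax : ∀ F, Fan F → F ≠ ⊥ → ∃ T, Max T ∧ F ≤ T ∧ ∀ T', Max T' → F ≤ T' → T' = T :=
    fun F hF hF0 => by
      obtain ⟨T, -, h2, h3, -⟩ := hN F hF hF0
      have hFT := h3 F Subgroup.le_normalizer hF
      exact ⟨T, ⟨h2, fun h => hF0 (le_bot_iff.1 (h ▸ hFT)), fun F' hF' h =>
        le_antisymm (h3 F' (hle (hFT.trans h) hF') hF') h⟩, hFT,
        fun T' hT' h => (hT'.2.2 T h2 (h3 T' (hle h hT'.1) hT'.1)).symm⟩
  have hsmul_bot : ∀ (g : X) (F : Subgroup X), MulAut.conj g • F = ⊥ → F = ⊥ := fun g F h => by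
    rw [← inv_smul_smul (MulAut.conj g) F, h, Subgroup.smul_bot]
  have hMaxconj : ∀ (g : X) T, Max T → Max (MulAut.conj g • T) := fun g T hT =>
    ⟨hconj T g hT.1, fun h => hT.2.1 (hsmul_bot g T h), fun F hF h => by
      rw [← hT.2.2 _ (hconj F g⁻¹ hF) (by
        rw [map_inv, ← Subgroup.pointwise_smul_le_pointwise_smul_iff (a := MulAut.conj g),
          smul_inv_smul]
        exact h), map_inv, smul_inv_smul]⟩
  have hcen : ∀ (g x : X) (F : Subgroup X), F ≤ Subgroup.centralizer {x} →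
      MulAut.conj g • F ≤ Subgroup.centralizer {g * x * g⁻¹} := by
    rintro g x F h _ ⟨a, ha, rfl⟩
    have := Subgroup.mem_centralizer_singleton_iff.1 (h ha)
    rw [Subgroup.mem_centralizer_singleton_iff]
    change g * a * g⁻¹ * _ = _ * (g * a * g⁻¹)
    rw [conj_mul, conj_mul, this]
  let U : Subgroup X → Finset X := fun T => Finset.univ.filter fun x =>
    ∃ F, Fan F ∧ F ≠ ⊥ ∧ F ≤ T ∧ F ≤ Subgroup.centralizer {x}
  have hUconj : ∀ (g : X) T x, x ∈ U T → g * x * g⁻¹ ∈ U (MulAut.conj g • T) := fun g T x hx => by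
    obtain ⟨F, h1, h2, h3, h4⟩ := (Finset.mem_filter.1 hx).2
    exact Finset.mem_filter.2 ⟨Finset.mem_univ _, _, hconj F g h1, fun h => h2 (hsmul_bot g F h),
      Subgroup.pointwise_smul_le_pointwise_smul_iff.2 h3, hcen g x F h4⟩
  have hUcard : ∀ (g : X) T, (U (MulAut.conj g • T)).card = (U T).card := by
    have : ∀ (g : X) T, (U T).card ≤ (U (MulAut.conj g • T)).card := fun g T =>
      Finset.card_le_card_of_injOn (fun x => g * x * g⁻¹) (fun x hx => hUconj g T x hx)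
        fun x _ y _ h => by simpa using h
    refine fun g T => le_antisymm ?_ (this g T)
    have h := this g⁻¹ (MulAut.conj g • T)
    rwa [map_inv, inv_smul_smul] at h
  let S : Finset X := Finset.univ.filter fun x =>
    x ≠ 1 ∧ ∀ F, Fan F → F ≤ Subgroup.centralizer {x} → F = ⊥
  let 𝓜 : Finset (Subgroup X) := Finset.univ.filter Max
  have hU1 : ∀ T ∈ 𝓜, (1 : X) ∈ U T := fun T hT =>
    have h := (Finset.mem_filter.1 hT).2
    Finset.mem_filter.2 ⟨Finset.mem_univ _, T, h.1, h.2.1, le_rfl, fun a _ => by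
      simp [Subgroup.mem_centralizer_singleton_iff]⟩
  -- the class equation
  have hclass : (Nat.card X : ℚ) = 1 + S.card + ∑ T ∈ 𝓜, (((U T).card : ℚ) - 1) := by
    have h1 : ∀ T ∈ 𝓜, ((U T).card : ℚ) - 1 = ∑ x : X, if x ∈ (U T).erase 1 then 1 else 0 :=
      fun T hT => by
        rw [Finset.sum_boole, Finset.filter_mem_eq_inter, Finset.univ_inter,
          ← Finset.card_erase_add_one (hU1 T hT)]
        simp
    have h2 : (S.card : ℚ) = ∑ x : X, if x ∈ S then 1 else 0 := by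
      rw [Finset.sum_boole, Finset.filter_mem_eq_inter, Finset.univ_inter]
    have h3 : (1 : ℚ) = ∑ x : X, if x = 1 then 1 else 0 := by simp
    rw [Finset.sum_congr rfl h1, Finset.sum_comm, h2]
    conv_rhs => rw [h3]
    rw [← Finset.sum_add_distrib, ← Finset.sum_add_distrib, Nat.card_eq_fintype_card,
      ← Finset.card_univ, Finset.card_eq_sum_ones, Nat.cast_sum]
    refine Finset.sum_congr rfl fun x _ => ?_
    rw [← h3]
    by_cases hx : x = 1
    · simp [hx, S]
    obtain ⟨T₀, h4, h5, h6, -⟩ := hC x hx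
    by_cases hS : x ∈ S
    · rw [if_neg hx, if_pos hS, Finset.sum_eq_zero fun T _ => if_neg fun h => by
        obtain ⟨F, h7, h8, -, h9⟩ := (Finset.mem_filter.1 (Finset.mem_of_mem_erase h)).2
        exact h8 ((Finset.mem_filter.1 hS).2.2 F h7 h9)]
      simp
    · have hT₀ : T₀ ≠ ⊥ := fun h => hS (Finset.mem_filter.2 ⟨Finset.mem_univ _, hx,
        fun F h7 h8 => le_bot_iff.1 (h ▸ h6 F h8 h7)⟩)
      obtain ⟨T, hT, h7, -⟩ := hmax T₀ h5 hT₀
      rw [if_neg hx, if_neg hS, Finset.sum_eq_single T (fun T' hT' hne => if_neg fun h => by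
        obtain ⟨F, h8, h9, h10, h11⟩ := (Finset.mem_filter.1 (Finset.mem_of_mem_erase h)).2
        obtain ⟨T'', -, -, h12⟩ := hmax F h8 h9
        exact hne ((h12 T' (Finset.mem_filter.1 hT').2 h10).trans
          (h12 T hT ((h6 F h11 h8).trans h7)).symm))
        (fun h => absurd (Finset.mem_filter.2 ⟨Finset.mem_univ _, hT⟩) h),
        if_pos (Finset.mem_erase.2 ⟨hx, Finset.mem_filter.2
          ⟨Finset.mem_univ _, T₀, h5, hT₀, h7, h4⟩⟩)]
      simp
  have hX : (0 : ℚ) < Nat.card X := by exact_mod_cast Nat.card_pos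
  -- the contribution of `S`
  obtain ⟨a, ha⟩ : ∃ a : ℕ, (N.factorial : ℚ) * S.card = a * Nat.card X := by
    obtain ⟨R, hR, h⟩ := exists_sum_eq_sum_index (X := ConjAct X) S fun g x hx => by
      obtain ⟨h1, h2⟩ := (Finset.mem_filter.1 hx).2
      refine Finset.mem_filter.2 ⟨Finset.mem_univ _, fun h => h1 (by
        rw [← inv_smul_smul g x, h, smul_one]), fun F hF h => ?_⟩
      refine hsmul_bot (ConjAct.ofConjAct g)⁻¹ F (h2 _ (hconj F _ hF) ?_)
      have := hcen (ConjAct.ofConjAct g)⁻¹ _ F h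
      rwa [ConjAct.smul_def, show (ConjAct.ofConjAct g)⁻¹ *
        (ConjAct.ofConjAct g * x * (ConjAct.ofConjAct g)⁻¹) * (ConjAct.ofConjAct g)⁻¹⁻¹ = x by
          group] at this
    have h1 := h (fun _ => 1) fun _ _ => rfl
    rw [Finset.sum_const, nsmul_eq_mul, mul_one] at h1
    have h2 : ∀ x ∈ R, Nat.card X ∣ N.factorial * (MulAction.stabilizer (ConjAct X) x).index :=
      fun x hx => by
        obtain ⟨h3, h4⟩ := (Finset.mem_filter.1 (hR hx)).2
        obtain ⟨T, h5, h6, -, h7⟩ := hC x h3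
        rw [h4 T h6 h5, Subgroup.relIndex_bot_left, Subgroup.nat_card_centralizer_nat_card_stabilizer]
          at h7
        rw [show Nat.card X = Nat.card (ConjAct X) from rfl,
          ← (MulAction.stabilizer (ConjAct X) x).card_mul_index]
        exact Nat.mul_dvd_mul_right (Nat.dvd_factorial Nat.card_pos h7) _
    obtain ⟨a, ha⟩ := Finset.dvd_sum h2
    refine ⟨a, ?_⟩
    rw [h1, mul_comm (a : ℚ), ← Nat.cast_mul, ← ha, Finset.mul_sum]
    simp
  -- the contribution of the maximal fans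
  let _ : MulAction X (Subgroup X) := MulAction.compHom _ (MulAut.conj : X →* MulAut X)
  obtain ⟨R, hR, h⟩ := exists_sum_eq_sum_index (X := X) 𝓜 fun g T hT =>
    Finset.mem_filter.2 ⟨Finset.mem_univ _, hMaxconj g T (Finset.mem_filter.1 hT).2⟩
  have hstab : ∀ T : Subgroup X, MulAction.stabilizer X T = Subgroup.normalizer (T : Set X) :=
    fun T => Subgroup.ext fun g => Subgroup.mem_normalizer_iff_map_conj_eq.symm
  rw [h (fun T => ((U T).card : ℚ) - 1) fun g T => congrArg (fun n : ℕ => (n : ℚ) - 1)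
    (hUcard g T)] at hclass
  simp only [hstab] at hclass
  have hRT : ∀ T ∈ R, ∃ q r : ℕ, 0 < q ∧ 0 < r ∧ r ≤ N ∧ 2 ≤ Nat.card T ∧
      (U T).card = Nat.card T * q ∧
      Nat.card (Subgroup.normalizer (T : Set X)) = Nat.card T * r := fun T hT => by
    have hM := (Finset.mem_filter.1 (hR hT)).2
    obtain ⟨q, hq⟩ := card_dvd_card_of_mul_mem T (U T) fun t ht y hy => by
      obtain ⟨F, h1, h2, h3, h4⟩ := (Finset.mem_filter.1 hy).2
      refine Finset.mem_filter.2 ⟨Finset.mem_univ _, F, h1, h2, h3, fun a ha => ?_⟩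
      have := Subgroup.mem_centralizer_singleton_iff.1 (h4 ha)
      rw [Subgroup.mem_centralizer_singleton_iff, ← mul_assoc, hab T hM.1 a (h3 ha) t ht,
        mul_assoc, this, mul_assoc]
    obtain ⟨T', -, h2, h3, h4⟩ := hN T hM.1 hM.2.1
    rw [hM.2.2 T' h2 (h3 T Subgroup.le_normalizer hM.1)] at h4
    refine ⟨q, _, Nat.pos_of_ne_zero fun h => ?_,
      Nat.pos_of_ne_zero Subgroup.FiniteIndex.index_ne_zero, h4,
      (Subgroup.one_lt_card_iff_ne_bot _).2 hM.2.1, hq, ?_⟩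
    · rw [h, mul_zero, Finset.card_eq_zero] at hq
      exact Finset.notMem_empty _ (hq ▸ hU1 T (hR hT))
    · rw [← Subgroup.relIndex_bot_left, ← Subgroup.relIndex_bot_left]
      exact (Subgroup.relIndex_mul_relIndex _ _ _ bot_le Subgroup.le_normalizer).symm
  have hidx : ∀ T : Subgroup X, ((Subgroup.normalizer (T : Set X)).index : ℚ) =
      Nat.card X * (Nat.card (Subgroup.normalizer (T : Set X)) : ℚ)⁻¹ := fun T => by
    rw [← (Subgroup.normalizer (T : Set X)).card_mul_index, Nat.cast_mul, mul_comm _ (_ : ℚ)⁻¹,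
      inv_mul_cancel_left₀ (by exact_mod_cast Nat.card_pos.ne')]
  rw [Finset.sum_congr rfl fun T _ => (congrArg (· * _) (hidx T)).trans (mul_assoc _ _ _),
    ← Finset.mul_sum] at hclass
  refine hB _ R (fun T => Nat.card (Subgroup.normalizer (T : Set X))) _ ?_ Nat.card_pos
    (fun T hT => ⟨Nat.card_pos, ?_⟩) ?_
  · have h1 : ∀ T ∈ R, (1 : ℚ) ≤ 2 * N * ((Nat.card (Subgroup.normalizer (T : Set X)) : ℚ)⁻¹ *
        (((U T).card : ℚ) - 1)) := fun T hT => by
      obtain ⟨q, r, hq, hr, hrN, h2, h3, h4⟩ := hRT T hT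
      rw [h3, h4, ← mul_assoc, mul_right_comm, ← div_eq_mul_inv,
        one_le_div (by exact_mod_cast Nat.mul_pos (by omega) hr)]
      push_cast
      have h5 : (2 : ℚ) ≤ Nat.card T := by exact_mod_cast h2
      have h6 : (1 : ℚ) ≤ q := by exact_mod_cast hq
      have h7 : (r : ℚ) ≤ N := by exact_mod_cast hrN
      have h8 : (0 : ℚ) ≤ r := by positivity
      generalize (Nat.card T : ℚ) = t at h5 ⊢
      have h9 : t ≤ 2 * (t * q - 1) := by nlinarith
      nlinarith
    have h2 := Finset.card_nsmul_le_sum R _ _ h1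
    rw [← Finset.mul_sum, nsmul_eq_mul, mul_one] at h2
    have h3 : ∑ T ∈ R, (Nat.card (Subgroup.normalizer (T : Set X)) : ℚ)⁻¹ *
        (((U T).card : ℚ) - 1) ≤ 1 := by
      refine le_of_mul_le_mul_left ?_ hX
      have : (0 : ℚ) ≤ S.card := Nat.cast_nonneg _
      linarith
    have h4 : (R.card : ℚ) ≤ 2 * N :=
      h2.trans (mul_le_of_le_one_right (by positivity) h3)
    exact_mod_cast h4
  · have hM := (Finset.mem_filter.1 (hR hT)).2
    refine lt_of_le_of_ne (Subgroup.card_le_card_group _) fun h => hno ⟨T, hM.1, hM.2.1, ?_⟩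
    exact Subgroup.normalizer_eq_top_iff.1 (Subgroup.eq_top_of_card_eq _ h)
  · have h1 : ∀ T, ∃ c : ℕ, T ∈ R → (N.factorial : ℚ) *
        ((Nat.card (Subgroup.normalizer (T : Set X)) : ℚ)⁻¹ * (U T).card) = c := fun T => by
      by_cases hT : T ∈ R
      · obtain ⟨q, r, hq, hr, hrN, h2, h3, h4⟩ := hRT T hT
        obtain ⟨c, hc⟩ := Nat.dvd_factorial hr hrN
        refine ⟨c * q, fun _ => ?_⟩
        rw [h3, h4, hc]
        have : (Nat.card T : ℚ) ≠ 0 := by exact_mod_cast (show Nat.card T ≠ 0 by omega)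
        have : (r : ℚ) ≠ 0 := by exact_mod_cast hr.ne'
        push_cast
        field_simp
      · exact ⟨0, fun h => absurd h hT⟩
    choose c hc using h1
    refine ⟨a + ∑ T ∈ R, c T - N.factorial, ?_⟩
    push_cast
    rw [← Finset.sum_congr rfl hc, ← Finset.mul_sum]
    simp only [mul_sub, mul_one, Finset.sum_sub_distrib] at hclass
    refine mul_left_cancel₀ hX.ne' ?_
    have h2 : (Nat.card X : ℚ) * (Nat.card X : ℚ)⁻¹ = 1 := mul_inv_cancel₀ hX.ne'
    linear_combination (N.factorial : ℚ) * hclass + ha - N.factorial * h2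

end Cfsg.Agent.H12
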