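import Mathlib
import Cfsg.Agent.H12.FanCount

/-!
# The Brauer–Feit analogue of Jordan's theorem in characteristic `p`, by Jordan's method
-/

set_option autoImplicit false

namespace Cfsg.Agent.H12

open scoped Pointwise

universe u v

/-- `H` has an abelian subgroup of index at most `J`. -/
def HasAb {G : Type*} [Group G] (J : ℕ) (H : Subgroup G) : Prop :=
  ∃ A ≤ H, (∀ a ∈ A, ∀ b ∈ A, a * b = b * a) ∧ A.relIndex H ≤ J

theorem sup_mul_comm {G : Type*} [Group G] {S T : Subgroup G}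
    (hS : ∀ a ∈ S, ∀ b ∈ S, a * b = b * a) (hT : ∀ a ∈ T, ∀ b ∈ T, a * b = b * a)
    (h : ∀ a ∈ S, ∀ b ∈ T, a * b = b * a) : ∀ a ∈ S ⊔ T, ∀ b ∈ S ⊔ T, a * b = b * a := by
  have h1 : S ⊔ T ≤ Subgroup.centralizer ((S ⊔ T : Subgroup G) : Set G) :=
    sup_le (Subgroup.le_centralizer_iff.1 (sup_le (fun a ha b hb => hS b hb a ha)
      fun a ha b hb => h b hb a ha))
      (Subgroup.le_centralizer_iff.1 (sup_le (fun a ha b hb => (h a ha b hb).symm)
        fun a ha b hb => hT b hb a ha))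
  exact fun a ha b hb => h1 hb a ha

theorem le_pow_of_isPGroup_dvd {p m : ℕ} [hp : Fact p.Prime] {K : Type*} [Group K] [Finite K]
    (hK : IsPGroup p K) {N : ℕ} (hN : ¬ p ^ (m + 1) ∣ N) (h : Nat.card K ∣ N) :
    Nat.card K ≤ p ^ m := by
  obtain ⟨k, hk⟩ := hK.exists_card_eq
  rw [hk] at h ⊢
  exact Nat.pow_le_pow_right hp.out.pos
    (not_lt.1 fun hlt => hN ((pow_dvd_pow p hlt).trans h))

theorem index_centralizer_le_factorial {G : Type*} [Group G] [Finite G] (K : Subgroup G)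
    [K.Normal] : (Subgroup.centralizer (K : Set G)).index ≤ (Nat.card K).factorial := by
  let f : G →* Equiv.Perm K := (MulAut.toPerm K).comp MulAut.conjNormal
  have h1 : f.ker ≤ Subgroup.centralizer (K : Set G) := fun g hg k hk => by
    have : g * k * g⁻¹ = k := congrArg (fun σ : Equiv.Perm K => (σ ⟨k, hk⟩ : G)) hg
    exact (mul_inv_eq_iff_eq_mul.1 this).symm
  refine (Subgroup.index_antitone h1).trans ?_
  rw [Subgroup.index_ker, ← Nat.card_perm]
  exact Subgroup.card_le_card_group _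

/-- The bound `J` works in dimension at most `n`. -/
def JB (p m n J : ℕ) : Prop :=
  ∀ (G : Type u) [Group G] [Finite G] (F : Type v) [Field F] [IsAlgClosed F] [CharP F p]
    (V : Type v) [AddCommGroup V] [Module F V] [FiniteDimensional F V]
    (ρ : Representation F G V), Module.finrank F V ≤ n → ¬ p ^ (m + 1) ∣ Nat.card G →
    ∃ A : Subgroup G, A.index ≤ J ∧ ∀ a ∈ A, ∀ b ∈ A, ρ (a * b) = ρ (b * a)

section Step

variable {G : Type u} [Group G] [Finite G] {F : Type v} [Field F] [IsAlgClosed F]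
  {V : Type v} [AddCommGroup V] [Module F V] [FiniteDimensional F V]
  {ρ : Representation F G V}

theorem exists_comm_of_reducible {p m n J : ℕ} [hp : Fact p.Prime] [CharP F p]
    (hJ : JB.{u, v} p m n J) (hinj : ∀ g, ρ g = 1 → g = 1) (hV : Module.finrank F V ≤ n + 1)
    (hG : ¬ p ^ (m + 1) ∣ Nat.card G) {W : Submodule F V} (h0 : W ≠ ⊥) (h1 : W ≠ ⊤)
    (hW : ∀ g, W ≤ W.comap (ρ g)) :
    ∃ A : Subgroup G, (∀ a ∈ A, ∀ b ∈ A, a * b = b * a) ∧
      A.index ≤ p ^ m * (J * J * (p ^ m).factorial) := by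
  have hlt := Submodule.finrank_lt h1
  have hpos : Module.finrank F W ≠ 0 := fun h => h0 (Submodule.finrank_eq_zero.1 h)
  have hq := W.finrank_quotient_add_finrank
  obtain ⟨A₁, h2, h3⟩ := hJ G F W (ρ.subrepresentation W hW) (by omega) hG
  obtain ⟨A₂, h4, h5⟩ := hJ G F (V ⧸ W) (ρ.quotient W hW) (by omega) hG
  set K := (ρ.subrepresentation W hW).ker ⊓ (ρ.quotient W hW).ker with hK
  have hKp : ∀ g ∈ K, g ^ p = 1 := fun g hg => by
    have e1 : ∀ w ∈ W, ρ g w = w := fun w hw =>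
      congrArg Subtype.val (LinearMap.congr_fun (MonoidHom.mem_ker.1 hg.1) ⟨w, hw⟩)
    have e2 : ∀ v, ρ g v - v ∈ W := fun v =>
      (Submodule.Quotient.eq W).1
        (LinearMap.congr_fun (MonoidHom.mem_ker.1 hg.2) (Submodule.Quotient.mk v))
    have e3 : ∀ (k : ℕ) v, ρ (g ^ k) v = v + (k : F) • (ρ g v - v) := fun k v => by
      induction k with
      | zero => simp
      | succ k ih =>
        rw [pow_succ', map_mul, Module.End.mul_apply, ih, map_add, map_smul, e1 _ (e2 v)]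
        push_cast
        module
    exact hinj _ (LinearMap.ext fun v => by rw [e3, CharP.cast_eq_zero, zero_smul, add_zero]; rfl)
  have hKc : Nat.card K ≤ p ^ m := le_pow_of_isPGroup_dvd
    (fun g => ⟨1, Subtype.ext (by simpa using hKp g g.2)⟩) hG (Subgroup.card_subgroup_dvd_card K)
  set B := A₁ ⊓ A₂ ⊓ Subgroup.centralizer (K : Set G) with hB
  have hBi : B.index ≤ J * J * (p ^ m).factorial :=
    Subgroup.index_inf_le.trans (Nat.mul_le_mul
      (Subgroup.index_inf_le.trans (Nat.mul_le_mul h2 h4))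
      ((index_centralizer_le_factorial K).trans (Nat.factorial_le hKc)))
  have hker : ∀ {M : Type v} [Monoid M] (σ : G →* M) {b c : G}, σ (b * c) = σ (c * b) →
      b⁻¹ * c⁻¹ * b * c ∈ σ.ker := fun σ b c h => by
    rw [MonoidHom.mem_ker, mul_assoc, map_mul, h, ← map_mul, ← map_one σ]
    congr 1
    group
  have hpB : IsPGroup p (B ⧸ Subgroup.center B) := fun x => by
    obtain ⟨b, rfl⟩ := QuotientGroup.mk_surjective x
    refine ⟨1, ?_⟩
    rw [pow_one, ← QuotientGroup.mk_pow, QuotientGroup.eq_one_iff, Subgroup.mem_center_iff]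
    intro c
    have hz : (b : G)⁻¹ * (c : G)⁻¹ * b * c ∈ K :=
      ⟨hker _ (h3 b b.2.1.1 c c.2.1.1), hker _ (h5 b b.2.1.2 c c.2.1.2)⟩
    have hc : Commute (b : G) ((b : G)⁻¹ * (c : G)⁻¹ * b * c) := (b.2.2 _ hz).symm
    have e := hc.mul_pow p
    rw [hKp _ hz, mul_one, show (b : G) * ((b : G)⁻¹ * (c : G)⁻¹ * b * c) =
      (c : G)⁻¹ * b * (c : G)⁻¹⁻¹ by group, conj_pow] at e
    refine Subtype.ext ?_
    change (c : G) * (b : G) ^ p = (b : G) ^ p * c
    conv_lhs => rw [← e]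
    group
  refine ⟨(Subgroup.center B).map B.subtype, ?_, ?_⟩
  · rintro _ ⟨a, -, rfl⟩ _ ⟨b, hb, rfl⟩
    exact congrArg Subtype.val (Subgroup.mem_center_iff.1 hb a)
  · rw [Subgroup.index_map_subtype]
    exact Nat.mul_le_mul (le_pow_of_isPGroup_dvd hpB hG
      ((Subgroup.card_quotient_dvd_card _).trans (Subgroup.card_subgroup_dvd_card B))) hBi

theorem hasAb_of_reducible {p m n J : ℕ} [hp : Fact p.Prime] [CharP F p]
    (hJ : JB.{u, v} p m n J) (hinj : ∀ g, ρ g = 1 → g = 1) (hV : Module.finrank F V ≤ n + 1)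
    (hG : ¬ p ^ (m + 1) ∣ Nat.card G) (H : Subgroup G) {W : Submodule F V} (h0 : W ≠ ⊥)
    (h1 : W ≠ ⊤) (hW : ∀ g ∈ H, W ≤ W.comap (ρ g)) :
    HasAb (p ^ m * (J * J * (p ^ m).factorial)) H := by
  obtain ⟨A, h2, h3⟩ := exists_comm_of_reducible (ρ := ρ.comp H.subtype) hJ
    (fun g hg => Subtype.ext (hinj g hg)) hV
    (fun h => hG (h.trans (Subgroup.card_subgroup_dvd_card H))) h0 h1 fun g => hW g g.2
  refine ⟨A.map H.subtype, Subgroup.map_subtype_le _, ?_, ?_⟩
  · rintro _ ⟨x, hx, rfl⟩ _ ⟨y, hy, rfl⟩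
    exact congrArg Subtype.val (h2 x hx y hy)
  · rwa [Subgroup.relIndex, Subgroup.subgroupOf,
      Subgroup.comap_map_eq_self_of_injective H.subtype_injective]

omit [Finite G] in
theorem exists_weight [Nontrivial V] (T : Subgroup G) (hT : ∀ a ∈ T, ∀ b ∈ T, a * b = b * a) :
    ∃ lam : T → F, ⨅ t : T, Module.End.eigenspace (ρ t) (lam t) ≠ ⊥ := by
  classical
  have hex : ∃ k, ∃ U : Submodule F V, U ≠ ⊥ ∧ (∀ t ∈ T, ∀ u ∈ U, ρ t u ∈ U) ∧
      Module.finrank F U = k := ⟨_, ⊤, top_ne_bot, fun _ _ _ _ => trivial, rfl⟩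
  obtain ⟨U, hU0, hU, hUk⟩ := Nat.find_spec hex
  have : Nontrivial U := Submodule.nontrivial_iff_ne_bot.2 hU0
  have key : ∀ t : T, ∃ c : F, U ≤ Module.End.eigenspace (ρ t) c := fun t => by
    obtain ⟨c, hc⟩ := Module.End.exists_eigenvalue ((ρ t).restrict (hU t t.2))
    obtain ⟨⟨u, hu⟩, hu1, hu2⟩ := hc.exists_hasEigenvector
    have h1 : u ∈ Module.End.eigenspace (ρ t) c := Module.End.mem_eigenspace_iff.2
      (congrArg Subtype.val (Module.End.mem_eigenspace_iff.1 hu1))
    have h2 := Nat.find_min' hex ⟨U ⊓ Module.End.eigenspace (ρ t) c,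
      (Submodule.ne_bot_iff _).2 ⟨u, ⟨hu, h1⟩, fun h => hu2 (Subtype.ext h)⟩,
      fun s hs x hx => ⟨hU s hs x hx.1, by
        have := Module.End.mem_eigenspace_iff.1 hx.2
        rw [SetLike.mem_coe, Module.End.mem_eigenspace_iff, ← Module.End.mul_apply, ← map_mul,
          hT t t.2 s hs, map_mul, Module.End.mul_apply, this, map_smul]⟩, rfl⟩
    exact ⟨c, inf_eq_left.1 (Submodule.eq_of_le_of_finrank_le inf_le_left (hUk.trans_le h2))⟩
  choose lam hlam using key
  exact ⟨lam, fun h => hU0 (le_bot_iff.1 (h ▸ le_iInf hlam))⟩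

/-- The normalizer of a non-scalar abelian subgroup has a reducible subgroup of index at most the
dimension. -/
theorem hasAb_normalizer {N₁ : ℕ} (red : ∀ (H : Subgroup G) (W : Submodule F V), W ≠ ⊥ → W ≠ ⊤ →
      (∀ g ∈ H, W ≤ W.comap (ρ g)) → HasAb N₁ H)
    (T : Subgroup G) (hT : ∀ a ∈ T, ∀ b ∈ T, a * b = b * a) {t : G} (ht : t ∈ T)
    (hts : ∀ c : F, ρ t ≠ c • 1) :
    HasAb (N₁ * Module.finrank F V) (Subgroup.normalizer (T : Set G)) := by
  classical
  have : Nontrivial V := by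
    by_contra h
    rw [not_nontrivial_iff_subsingleton] at h
    exact hts 0 (Subsingleton.elim _ _)
  obtain ⟨lam, hlam⟩ := exists_weight (ρ := ρ) T hT
  let E : (T → F) → Submodule F V := fun μ => ⨅ t : T, Module.End.eigenspace (ρ t) (μ t)
  have hmem : ∀ μ v, v ∈ E μ ↔ ∀ t : T, ρ t v = μ t • v := fun μ v => by
    simp only [E, Submodule.mem_iInf, Module.End.mem_eigenspace_iff]
  have hind : iSupIndep E := by
    have h1 := Module.End.independent_iInf_maxGenEigenspace_of_forall_mapsTo (fun t : T => ρ t)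
      fun a b φ => Module.End.mapsTo_maxGenEigenspace_of_comm
        ((show Commute (b : G) a from hT b b.2 a a.2).map ρ) φ
    refine h1.mono fun μ v hv => ?_
    rw [Module.End.mem_iInf_maxGenEigenspace_iff]
    exact fun s => ⟨1, by simp [(hmem μ v).1 hv s]⟩
  set N := Subgroup.normalizer (T : Set G) with hN
  let cj : N → T → F := fun g s => lam ⟨(g : G)⁻¹ * s * g,
    (Subgroup.mem_normalizer_iff''.1 g.2 s).1 s.2⟩
  have hcj : ∀ (g : N) v, ρ g v ∈ E (cj g) ↔ v ∈ E lam := fun g v => by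
    have e : ∀ s : T, ρ s (ρ g v) = ρ g (ρ ((g : G)⁻¹ * s * g) v) := fun s => by
      simp only [← Module.End.mul_apply, ← map_mul]
      congr 2
      group
    have hi : Function.Injective (ρ g) := fun x y h => by
      simpa [← Module.End.mul_apply, ← map_mul] using congrArg (ρ (g : G)⁻¹) h
    simp only [hmem, e, ← map_smul, hi.eq_iff]
    refine ⟨fun h s => ?_, fun h s => h ⟨_, _⟩⟩
    have := h ⟨g * s * (g : G)⁻¹, (Subgroup.mem_normalizer_iff.1 g.2 s).1 s.2⟩
    simpa [cj, mul_assoc] using this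
  let K : Subgroup G :=
    { carrier := {g | ∀ v, ρ g v ∈ E lam ↔ v ∈ E lam}
      one_mem' := fun v => by simp
      mul_mem' := fun {a b} ha hb v => by rw [map_mul, Module.End.mul_apply, ha, hb]
      inv_mem' := fun {a} ha v => by
        rw [← ha, ← Module.End.mul_apply, ← map_mul, mul_inv_cancel, map_one,
          Module.End.one_apply] }
  have hK : K.relIndex N ≤ Module.finrank F V := by
    have := hind.fintypeNeBotOfFiniteDimensional
    refine le_trans ?_ hind.subtype_ne_bot_le_finrank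
    rw [← Nat.card_eq_fintype_card]
    refine Nat.card_le_card_of_injective (fun q : N ⧸ K.subgroupOf N =>
      (⟨cj q.out, fun h => hlam (eq_bot_iff.2 fun v hv => ?_)⟩ : {μ // E μ ≠ ⊥}))
      fun q r h => ?_
    · have h1 := (hcj q.out v).2 hv
      rw [h, Submodule.mem_bot] at h1
      simpa [← Module.End.mul_apply, ← map_mul] using congrArg (ρ (q.out : G)⁻¹) h1
    · have h1 : cj q.out = cj r.out := congrArg Subtype.val h
      rw [← q.out_eq, ← r.out_eq]
      refine QuotientGroup.eq.2 fun v => ?_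
      rw [← hcj q.out, ← hcj r.out v, h1, ← Module.End.mul_apply, ← map_mul]
      simp
  obtain ⟨A, h1, h2, h3⟩ := red (K ⊓ N) (E lam) hlam (fun h => hts (lam ⟨t, ht⟩)
    (LinearMap.ext fun v => (hmem lam v).1 (h ▸ Submodule.mem_top) ⟨t, ht⟩))
    fun g hg v hv => (hg.1 v).2 hv
  refine ⟨A, h1.trans inf_le_right, h2, ?_⟩
  rw [← Subgroup.relIndex_mul_relIndex _ _ _ h1 inf_le_right, Subgroup.inf_relIndex_right]
  exact Nat.mul_le_mul h3 hK

end Step

section Fans

variable {G : Type u} [Group G] {F : Type v} [Field F] {V : Type v} [AddCommGroup V] [Module F V]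
  (ρ : Representation F G V) {X : Type u} [Group X] (π : G →* X)

/-- The group elements commuting with an endomorphism. -/
def centOf (a : Module.End F V) : Subgroup G where
  carrier := {g | a * ρ g = ρ g * a}
  one_mem' := by simp
  mul_mem' := fun {g h} (hg : _ = _) (hh : _ = _) => by
    change _ = _
    rw [map_mul, ← mul_assoc, hg, mul_assoc, hh, mul_assoc]
  inv_mem' := fun {g} (hg : _ = _) => by
    change _ = _
    calc a * ρ g⁻¹ = ρ g⁻¹ * (ρ g * a) * ρ g⁻¹ := by rw [← mul_assoc, ← map_mul]; simp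
      _ = ρ g⁻¹ * a := by rw [← hg, mul_assoc, mul_assoc, ← map_mul]; simp

/-- The commutant of the preimage of a subgroup. -/
def commutant (E : Subgroup X) : Submodule F (Module.End F V) where
  carrier := {a | E.comap π ≤ centOf ρ a}
  zero_mem' := fun g _ => by
    change _ = _
    simp
  add_mem' := fun {a b} ha hb g hg => by
    have h1 : _ = _ := ha hg
    have h2 : _ = _ := hb hg
    change _ = _
    rw [add_mul, mul_add, h1, h2]
  smul_mem' := fun c a ha g hg => by
    have h1 : _ = _ := ha hg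
    change _ = _
    rw [smul_mul_assoc, mul_smul_comm, h1]

/-- Jordan's fans. -/
def IsFan (M : ℕ) (E : Subgroup X) : Prop :=
  (∀ a ∈ E.comap π, ∀ b ∈ E.comap π, a * b = b * a) ∧
    ∀ E' ≤ E, E'.relIndex E < M → commutant ρ π E' ≤ commutant ρ π E

variable {ρ π}

theorem commutant_anti {E E' : Subgroup X} (h : E ≤ E') : commutant ρ π E' ≤ commutant ρ π E :=
  fun _ ha => (Subgroup.comap_mono h).trans ha

theorem IsFan.conj {M : ℕ} (hπ : Function.Surjective π) {E : Subgroup X} (hE : IsFan ρ π M E)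
    (x : X) : IsFan ρ π M (MulAut.conj x • E) := by
  obtain ⟨g, rfl⟩ := hπ x
  have hmem : ∀ (g a : G) (E : Subgroup X),
      a ∈ (MulAut.conj (π g) • E).comap π ↔ g⁻¹ * a * g ∈ E.comap π := fun g a E => by
    simp [Subgroup.mem_pointwise_smul_iff_inv_smul_mem]
  have hcomm : ∀ (g : G) (E : Subgroup X) (a : Module.End F V), a ∈ commutant ρ π E →
      ρ g * a * ρ g⁻¹ ∈ commutant ρ π (MulAut.conj (π g) • E) := fun g E a ha b hb => by
    have h1 : a * ρ (g⁻¹ * b * g) = ρ (g⁻¹ * b * g) * a := ha ((hmem g b E).1 hb)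
    change _ = _
    calc ρ g * a * ρ g⁻¹ * ρ b = ρ g * (a * ρ (g⁻¹ * b * g)) * ρ g⁻¹ := by
          simp only [mul_assoc, ← map_mul, mul_inv_cancel, mul_one]
      _ = _ := by
          rw [h1]
          simp only [← mul_assoc, ← map_mul, mul_inv_cancel, one_mul]
  refine ⟨fun a ha b hb => ?_, fun E' hE' hM a ha => ?_⟩
  · have := hE.1 _ ((hmem g a E).1 ha) _ ((hmem g b E).1 hb)
    calc a * b = g * (g⁻¹ * a * g * (g⁻¹ * b * g)) * g⁻¹ := by group
      _ = g * (g⁻¹ * b * g * (g⁻¹ * a * g)) * g⁻¹ := by rw [this]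
      _ = b * a := by group
  · have h1 := hE.2 (MulAut.conj (π g⁻¹) • E') (by
      rw [map_inv, map_inv, ← Subgroup.pointwise_smul_le_pointwise_smul_iff
        (a := MulAut.conj (π g)), smul_inv_smul]
      exact hE') (by
        rwa [← Subgroup.relIndex_pointwise_smul (MulAut.conj (π g)), map_inv, map_inv,
          smul_inv_smul]) (hcomm g⁻¹ E' a ha)
    have h2 := hcomm g E _ h1
    simpa [← mul_assoc, ← map_mul, mul_assoc a] using h2

variable [Finite X]

theorem exists_isFan_le [FiniteDimensional F V] {M : ℕ} (hM : 0 < M) (k : ℕ) :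
    ∀ A : Subgroup X, (∀ a ∈ A.comap π, ∀ b ∈ A.comap π, a * b = b * a) →
      Module.finrank F (Module.End F V) ≤ Module.finrank F (commutant ρ π A) + k →
      ∃ E ≤ A, IsFan ρ π M E ∧ E.relIndex A ≤ M ^ k := by
  induction k with
  | zero =>
    refine fun A hA h => ⟨A, le_rfl, ⟨hA, fun E _ _ => ?_⟩, by simp⟩
    rw [Submodule.eq_top_of_finrank_eq (le_antisymm (Submodule.finrank_le _) h)]
    exact le_top
  | succ k ih =>
    intro A hA h
    by_cases hf : IsFan ρ π M A
    · exact ⟨A, le_rfl, hf, by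
        rw [Subgroup.relIndex_self]
        exact Nat.one_le_pow _ _ hM⟩
    · obtain ⟨E, h1, h2, h3⟩ : ∃ E ≤ A, E.relIndex A < M ∧
          ¬ commutant ρ π E ≤ commutant ρ π A := by
        by_contra! h'
        exact hf ⟨hA, h'⟩
      have h4 := Submodule.finrank_lt_finrank_of_lt (lt_of_le_not_ge (commutant_anti h1) h3)
      obtain ⟨E', h5, h6, h7⟩ := ih E
        (fun a ha b hb => hA a (Subgroup.comap_mono h1 ha) b (Subgroup.comap_mono h1 hb))
        (by omega)
      refine ⟨E', h5.trans h1, h6, ?_⟩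
      rw [← Subgroup.relIndex_mul_relIndex _ _ _ h5 h1, pow_succ]
      exact Nat.mul_le_mul h7 h2.le

theorem exists_greatestFan [FiniteDimensional F V] (hinj : ∀ g, ρ g = 1 → g = 1)
    (hπ : Function.Surjective π) {M N : ℕ} (hM : N < M) {H A : Subgroup X} (hAH : A ≤ H)
    (hA : ∀ a ∈ A.comap π, ∀ b ∈ A.comap π, a * b = b * a) (hN : A.relIndex H ≤ N) :
    ∃ T, GreatestFan (IsFan ρ π M) (M ^ Module.finrank F (Module.End F V) * N) H T := by
  obtain ⟨E, h1, h2, h3⟩ := exists_isFan_le (ρ := ρ) (M := M) (by omega) _ A hA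
    (Nat.le_add_left _ _)
  obtain ⟨T, hET, hT⟩ := Finite.exists_le_maximal (p := fun T => T ≤ H ∧ IsFan ρ π M T)
    ⟨h1.trans hAH, h2⟩
  have hlt : ∀ E ≤ H, (E ⊓ A).relIndex E < M := fun E hE => by
    rw [Subgroup.inf_relIndex_left]
    exact ((Subgroup.relIndex_le_of_le_right hE Subgroup.FiniteIndex.index_ne_zero).trans
      hN).trans_lt hM
  refine ⟨T, hT.prop.1, hT.prop.2, fun E' hE' hf => ?_, ?_⟩
  · have hc : ∀ a ∈ T.comap π, ∀ b ∈ E'.comap π, a * b = b * a := fun a ha b hb => by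
      have h4 : ρ a ∈ commutant ρ π E' := hf.2 _ inf_le_left (hlt E' hE') fun c hc => by
        have h5 : ρ c ∈ commutant ρ π T := hT.prop.2.2 _ inf_le_left (hlt T hT.prop.1)
          fun d hd => by
            change _ = _
            rw [← map_mul, ← map_mul, hA c hc.2 d hd.2]
        exact Eq.symm (h5 ha)
      have h5 : ρ a * ρ b = ρ b * ρ a := h4 hb
      rw [← mul_inv_eq_one]
      refine hinj _ ?_
      rw [map_mul, map_mul, h5, ← map_mul, ← map_mul, mul_inv_cancel, map_one]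
    refine le_sup_right.trans (hT.le_of_ge ⟨sup_le hT.prop.1 hE', ?_, fun D hD hDM a ha => ?_⟩
      le_sup_left)
    · rw [← Subgroup.comap_sup_eq _ _ _ hπ]
      exact sup_mul_comm hT.prop.2.1 hf.1 hc
    · have h4 : ∀ E ≤ T ⊔ E', (E ⊓ D).relIndex E < M := fun E hE => by
        rw [Subgroup.inf_relIndex_left]
        exact (Subgroup.relIndex_le_of_le_right hE
          Subgroup.FiniteIndex.index_ne_zero).trans_lt hDM
      change (T ⊔ E').comap π ≤ centOf ρ a
      rw [← Subgroup.comap_sup_eq _ _ _ hπ]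
      exact sup_le (hT.prop.2.2 _ inf_le_left (h4 T le_sup_left) (commutant_anti inf_le_right ha))
        (hf.2 _ inf_le_left (h4 E' le_sup_right) (commutant_anti inf_le_right ha))
  · refine (Subgroup.relIndex_le_of_le_left hET Subgroup.FiniteIndex.index_ne_zero).trans ?_
    rw [← Subgroup.relIndex_mul_relIndex _ _ _ h1 hAH]
    exact Nat.mul_le_mul h3 hN

end Fans

theorem GreatestFan.mono {X : Type*} [Group X] {Fan : Subgroup X → Prop} {N N' : ℕ}
    {H T : Subgroup X} (h : GreatestFan Fan N H T) (hN : N ≤ N') : GreatestFan Fan N' H T :=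
  ⟨h.1, h.2.1, h.2.2.1, h.2.2.2.trans hN⟩

theorem exists_JB {p : ℕ} [hp : Fact p.Prime] (m n : ℕ) : ∃ J, JB.{u, v} p m n J := by
  induction n with
  | zero =>
    refine ⟨1, fun G _ _ F _ _ _ V _ _ _ ρ hV _ => ⟨⊤, by simp, fun a _ b _ => ?_⟩⟩
    have := Module.finrank_zero_iff.1 (Nat.le_zero.1 hV)
    exact Subsingleton.elim _ _
  | succ n ih =>
  obtain ⟨J, hJ⟩ := ih
  set N := p ^ m * (J * J * (p ^ m).factorial) * (n + 1) with hN
  obtain ⟨B, hB⟩ := exists_bound_of_fans.{u} ((N + 1) ^ ((n + 1) * (n + 1)) * N)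
  refine ⟨max B N, fun G₀ _ _ F _ _ _ V _ _ _ ρ₀ hV hG₀ => ?_⟩
  suffices h : ∀ (G : Type u) [Group G] [Finite G] (ρ : Representation F G V),
      (∀ g, ρ g = 1 → g = 1) → ¬ p ^ (m + 1) ∣ Nat.card G →
      ∃ A : Subgroup G, A.index ≤ max B N ∧ ∀ a ∈ A, ∀ b ∈ A, a * b = b * a by
    obtain ⟨A, h1, h2⟩ := h (G₀ ⧸ ρ₀.ker) (QuotientGroup.lift _ ρ₀ le_rfl) (fun g hg => by
      obtain ⟨g, rfl⟩ := QuotientGroup.mk_surjective g
      exact (QuotientGroup.eq_one_iff g).2 hg)
      fun h => hG₀ (h.trans (Subgroup.card_quotient_dvd_card _))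
    refine ⟨A.comap (QuotientGroup.mk' _), ?_, fun a ha b hb => ?_⟩
    · rwa [Subgroup.index_comap_of_surjective _ (QuotientGroup.mk'_surjective _)]
    · exact congrArg (QuotientGroup.lift _ ρ₀ le_rfl) (h2 _ ha _ hb)
  intro G _ _ ρ hinj hG
  let Φ : Subgroup G :=
    { carrier := {g | ∃ c : F, ρ g = c • 1}
      one_mem' := ⟨1, by simp⟩
      mul_mem' := by
        rintro a b ⟨c, hc⟩ ⟨d, hd⟩
        exact ⟨c * d, by rw [map_mul, hc, hd, smul_mul_smul_comm, mul_one]⟩
      inv_mem' := by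
        rintro a ⟨c, hc⟩
        refine ⟨c ^ (orderOf a - 1), ?_⟩
        rw [show a⁻¹ = a ^ (orderOf a - 1) by
          rw [inv_eq_iff_mul_eq_one, ← pow_succ', Nat.sub_add_cancel (orderOf_pos a),
            pow_orderOf_eq_one], map_pow, hc, smul_pow, one_pow] }
  have hΦ : ∀ a ∈ Φ, ∀ b, a * b = b * a := by
    rintro a ⟨c, hc⟩ b
    rw [← mul_inv_eq_one]
    refine hinj _ ?_
    rw [map_mul, map_mul, hc, smul_mul_assoc, one_mul, ← mul_one (ρ b), ← mul_smul_comm, ← hc,
      ← map_mul, ← map_mul, mul_inv_cancel, map_one]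
  have : Φ.Normal := ⟨fun a ha g => by rwa [← hΦ a ha g, mul_inv_cancel_right]⟩
  set π := QuotientGroup.mk' Φ with hπdef
  have hπ : Function.Surjective π := QuotientGroup.mk'_surjective Φ
  have hcm : ∀ A : Subgroup G, (∀ a ∈ A, ∀ b ∈ A, a * b = b * a) →
      ∀ a ∈ (A.map π).comap π, ∀ b ∈ (A.map π).comap π, a * b = b * a := fun A hA => by
    rw [Subgroup.comap_map_eq, QuotientGroup.ker_mk']
    exact sup_mul_comm hA (fun a ha b _ => hΦ a ha b) fun a _ b hb => (hΦ b hb a).symm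
  have key : ∀ E : Subgroup (G ⧸ Φ), (∀ a ∈ E.comap π, ∀ b ∈ E.comap π, a * b = b * a) →
      E ≠ ⊥ → ∃ A ≤ Subgroup.normalizer (E : Set (G ⧸ Φ)),
        (∀ a ∈ A.comap π, ∀ b ∈ A.comap π, a * b = b * a) ∧
        A.relIndex (Subgroup.normalizer (E : Set (G ⧸ Φ))) ≤ N := fun E hE hE0 => by
    obtain ⟨⟨x, hx⟩, hx1⟩ := Subgroup.ne_bot_iff_exists_ne_one.1 hE0
    obtain ⟨t, rfl⟩ := hπ x
    obtain ⟨A, h1, h2, h3⟩ := hasAb_normalizer
      (fun H W h0 h1 hW => hasAb_of_reducible hJ hinj hV hG H h0 h1 hW) (E.comap π) hE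
      (t := t) hx fun c hc => hx1 (Subtype.ext ((QuotientGroup.eq_one_iff t).2 ⟨c, hc⟩))
    rw [← Subgroup.comap_normalizer_eq_of_surjective _ hπ] at h1 h3
    refine ⟨A.map π, Subgroup.map_le_iff_le_comap.2 h1, hcm A h2, ?_⟩
    rw [← Subgroup.map_comap_eq_self_of_surjective hπ (Subgroup.normalizer _),
      ← Subgroup.relIndex_comap]
    exact ((Subgroup.relIndex_le_of_le_left (Subgroup.le_comap_map _ _)
      Subgroup.FiniteIndex.index_ne_zero).trans h3).trans (Nat.mul_le_mul_left _ hV)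
  have hle : (N + 1) ^ Module.finrank F (Module.End F V) * N ≤
      (N + 1) ^ ((n + 1) * (n + 1)) * N := by
    rw [Module.finrank_linearMap]
    exact Nat.mul_le_mul_right _ (Nat.pow_le_pow_right (by omega) (Nat.mul_le_mul hV hV))
  rcases hB (G ⧸ Φ) (IsFan ρ π (N + 1))
    (fun E hE a ha b hb => by
      obtain ⟨a, rfl⟩ := hπ a
      obtain ⟨b, rfl⟩ := hπ b
      rw [← map_mul, ← map_mul, hE.1 a ha b hb])
    (fun E x hE => hE.conj hπ x)
    (fun x hx => by
      obtain ⟨g, rfl⟩ := hπ x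
      obtain ⟨A, h1, h2, h3⟩ := key (Subgroup.zpowers (π g)) (by
        rw [← MonoidHom.map_zpowers]
        refine hcm _ ?_
        rintro _ ⟨i, rfl⟩ _ ⟨j, rfl⟩
        exact (Commute.zpow_zpow_self g i j).eq) (by rwa [Ne, Subgroup.zpowers_eq_bot])
      have h4 : Subgroup.centralizer {π g} ≤
          Subgroup.normalizer (Subgroup.zpowers (π g) : Set (G ⧸ Φ)) := fun y hy =>
        Subgroup.centralizer_le_normalizer _ (by
          rintro _ ⟨i, rfl⟩
          exact ((show Commute y (π g) from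
            Subgroup.mem_centralizer_singleton_iff.1 hy).zpow_right i).symm.eq)
      obtain ⟨T, hT⟩ := exists_greatestFan hinj hπ (Nat.lt_succ_self N)
        (H := Subgroup.centralizer {π g}) (A := A ⊓ Subgroup.centralizer {π g}) inf_le_right
        (fun a ha b hb => h2 a ha.1 b hb.1) (by
          rw [Subgroup.inf_relIndex_right]
          exact (Subgroup.relIndex_le_of_le_right h4 Subgroup.FiniteIndex.index_ne_zero).trans h3)
      exact ⟨T, hT.mono hle⟩)
    (fun E hE hE0 => by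
      obtain ⟨A, h1, h2, h3⟩ := key E hE.1 hE0
      obtain ⟨T, hT⟩ := exists_greatestFan hinj hπ (Nat.lt_succ_self N) h1 h2 h3
      exact ⟨T, hT.mono hle⟩) with h | ⟨E, hE, hE0, hEn⟩
  · exact ⟨Φ, le_trans h (le_max_left _ _), fun a ha b _ => hΦ a ha b⟩
  · obtain ⟨A, -, h2, h3⟩ := key E hE.1 hE0
    rw [Subgroup.normalizer_eq_top, Subgroup.relIndex_top_right] at h3
    refine ⟨A.comap π, ?_, h2⟩
    rw [Subgroup.index_comap_of_surjective _ hπ]
    exact h3.trans (le_max_right _ _)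

/-- Brauer–Feit. -/
theorem brauer_feit (p : ℕ) [Fact p.Prime] : ∃ f : ℕ → ℕ → ℕ, ∀ (G : Type u) [Group G] [Finite G]
    (F : Type v) [Field F] [CharP F p] (n : ℕ) (ρ : Representation F G (Fin n → F)),
    Function.Injective ρ → ∀ m : ℕ, (Nat.card G).factorization p = m →
    ∃ A : Subgroup G, A.Normal ∧ IsMulCommutative A ∧ A.index < f m n := by
  choose J hJ using fun m n => exists_JB.{u, v} (p := p) m n
  refine ⟨fun m n => (J m n).factorial + 1, fun G _ _ F _ _ n ρ hρ m hm => ?_⟩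
  let K := AlgebraicClosure F
  let φ : Module.End F (Fin n → F) →* Module.End K (Fin n → K) :=
    (Matrix.toLinAlgEquiv' (R := K) (n := Fin n)).toRingEquiv.toMonoidHom.comp
      ((algebraMap F K).mapMatrix.toMonoidHom.comp
        (LinearMap.toMatrixAlgEquiv' (R := F) (n := Fin n)).toRingEquiv.toMonoidHom)
  have hφ : Function.Injective φ :=
    (Matrix.toLinAlgEquiv' (R := K) (n := Fin n)).injective.comp
      ((Matrix.map_injective (algebraMap F K).injective).comp
        (LinearMap.toMatrixAlgEquiv' (R := F) (n := Fin n)).injective)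
  obtain ⟨A, h1, h2⟩ := hJ m n G K (Fin n → K) (φ.comp ρ) (by simp)
    (hm ▸ Nat.pow_succ_factorization_not_dvd Nat.card_pos.ne' Fact.out)
  refine ⟨A.normalCore, inferInstance, ⟨⟨fun a b => Subtype.ext
    (hρ (hφ (h2 a (A.normalCore_le a.2) b (A.normalCore_le b.2))))⟩⟩, Nat.lt_succ_of_le ?_⟩
  rw [Subgroup.normalCore_eq_ker, Subgroup.index_ker]
  refine (Subgroup.card_le_card_group _).trans ?_
  rw [Nat.card_perm]
  exact Nat.factorial_le h1

end Cfsg.Agent.H12
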