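import Cfsg.Agent.H12.J5A
import Cfsg.Prelude.Def_TwoFusion

/-!
Local analysis in groups of Janko-four type, part 2: the centraliser of an element of order five.
-/

set_option autoImplicit false

namespace Cfsg.Agent.H12.J4

open Subgroup Matrix
open H49 (cj mem_cj card_cj cj_eq_iff)

theorem sl_aux (A : Matrix (Fin 3) (Fin 3) (ZMod 2)) (h : A ^ 8 = 1) :
    A ^ 4 = 1 ∧ 1 + A + A ^ 2 + A ^ 3 = 0 := by
  have h0 : ∀ n, (A + 1) ^ 2 ^ n = A ^ 2 ^ n + 1 := fun n => by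
    rw [add_pow_char_pow_of_commute _ _ (Commute.one_right A), one_pow]
  have h1 : IsNilpotent (A + 1) := ⟨2 ^ 3, by rw [h0]; exact h ▸ CharTwo.add_self_eq_zero _⟩
  have h2 : (A + 1) ^ 3 = 0 := by
    have := (A + 1).aeval_self_charpoly
    rwa [sub_eq_zero.1 (isNilpotent_charpoly_sub_pow_of_isNilpotent h1).eq_zero, map_pow,
      Polynomial.aeval_X] at this
  constructor
  · have := h0 2
    rw [show 2 ^ 2 = 3 + 1 from rfl, pow_succ, h2, zero_mul] at this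
    exact (CharTwo.add_eq_zero.1 this.symm)
  · rw [pow_succ, show (A + 1) ^ 2 = A ^ 2 + 1 from h0 1] at h2
    rw [← h2]
    noncomm_ring

variable {G : Type*} [Group G]

/-- `SL₃(2)` -/
abbrev L32 := SpecialLinearGroup (Fin 3) (ZMod 2)

theorem cj_N (A : Subgroup G) (g : G) :
    cj (normalizer (A : Set G)) g = normalizer (cj A g : Set G) := H98.map_conj_normalizer g A

theorem comm_of_sq {E : Subgroup G} (sq : ∀ e ∈ E, e * e = 1) {a b : G} (ha : a ∈ E) (hb : b ∈ E) :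
    a * b = b * a := by
  rw [← inv_eq_of_mul_eq_one_right (sq _ (E.mul_mem ha hb)), _root_.mul_inv_rev,
    inv_eq_of_mul_eq_one_right (sq a ha), inv_eq_of_mul_eq_one_right (sq b hb)]

/-- The action on an elementary abelian group of order eight. -/
theorem exists_rep [Finite G] {E : Subgroup G} (sq : ∀ e ∈ E, e * e = 1) (hc : Nat.card E = 8) :
    ∃ (ν : (Fin 3 → ZMod 2) → G) (φ : normalizer (E : Set G) →* L32),
      (∀ a b, ν (a + b) = ν a * ν b) ∧ (∀ y ∈ E, ∃ a, ν a = y) ∧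
      (∀ g a, g.1 * ν a * g.1⁻¹ = ν ((φ g).1 *ᵥ a)) ∧
      ∀ g, φ g = 1 ↔ g.1 ∈ centralizer (E : Set G) := by
  obtain ⟨ν, h1, h2, h3⟩ := H49.exists_nu sq (n := 3) hc
  obtain ⟨φ, h4⟩ := H49.exists_phi h1 h2 h3
  refine ⟨ν, φ, h1, fun y hy => (h3 y).1 hy, h4, fun g => ⟨fun h y hy => ?_, fun h => ?_⟩⟩
  · obtain ⟨a, rfl⟩ := (h3 y).1 hy
    rw [mul_inv_eq_iff_eq_mul.1 (h4 g a), h]
    exact congrArg (fun x => ν x * g.1) (one_mulVec a).symm
  · refine Subtype.ext (Matrix.toLin'.injective (LinearMap.ext fun a => h2 ?_))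
    rw [toLin'_apply, ← h4, ← h _ ((h3 _).2 ⟨a, rfl⟩)]
    simp

/-- A central element of prime order splits off. -/
theorem exists_split [Finite G] {s : G} {p n : ℕ} (hp : p.Prime) (hs : orderOf s = p)
    (hc : Nat.card (C1 s) = p * n) (hn : ¬ p ∣ n) :
    ∃ J : Subgroup G, IsInternalDirectProduct (zpowers s) J (centralizer (zpowers s : Set G)) ∧
      J ≤ C1 s ∧ Nat.card J = n ∧ ∀ x ∈ C1 s, x ^ p ∈ J := by
  have h0 : zpowers s ≤ C1 s := zpowers_le.2 (mem_C1.2 rfl)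
  have h1 : ∀ a ∈ zpowers s, ∀ b ∈ C1 s, a * b = b * a := fun a ha b hb =>
    (cent_zp s).ge hb a ha
  have h2 : Nat.card ((zpowers s).subgroupOf (C1 s)) = p := by
    rw [Nat.card_congr (subgroupOfEquivOfLe h0).toEquiv, Nat.card_zpowers, hs]
  have h3 : ((zpowers s).subgroupOf (C1 s)).index = n := by
    have := ((zpowers s).subgroupOf (C1 s)).card_mul_index
    rw [h2, hc] at this
    exact Nat.eq_of_mul_eq_mul_left hp.pos this
  have : ((zpowers s).subgroupOf (C1 s)).Normal := normal_subgroupOf_of_le_normalizer (C1_le_N s)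
  obtain ⟨K, hK⟩ := exists_right_complement'_of_coprime (N := (zpowers s).subgroupOf (C1 s))
    (by rw [h2, h3]; exact hp.coprime_iff_not_dvd.2 hn)
  have h4 : K.Normal := normalizer_eq_top_iff.1 (eq_top_iff.2 (hK.sup_eq_top.ge.trans (sup_le
    (fun a ha => centralizer_le_normalizer _ fun b _ => Subtype.ext (h1 a ha b b.2).symm)
    le_normalizer)))
  refine ⟨K.map (C1 s).subtype, ⟨h0.trans (cent_zp s).ge, (map_subtype_le _).trans (cent_zp s).ge,
    fun a ha b hb => h1 a ha b (map_subtype_le _ hb), ?_, ?_⟩, map_subtype_le _, ?_, fun x hx => ?_⟩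
  · rw [eq_bot_iff]
    rintro _ ⟨h, y, hy, rfl⟩
    exact congrArg Subtype.val (disjoint_def.1 hK.disjoint h hy)
  · rw [cent_zp, ← inf_eq_left.2 h0, ← subgroupOf_map_subtype, ← Subgroup.map_sup, hK.sup_eq_top,
      ← MonoidHom.range_eq_map, range_subtype]
  · rw [card_map_of_injective (subtype_injective _), ← h3, hK.symm.index_eq_card]
  · exact ⟨⟨x, hx⟩ ^ p, by rw [← h2, ← hK.index_eq_card]; exact K.pow_index_mem _, rfl⟩

/-- The local data at an element of order five. -/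
structure C5 (s : G) (E : Subgroup G) : Prop where
  ord : orderOf s = 5
  sq : ∀ e ∈ E, e * e = 1
  card : Nat.card E = 8
  le : E ≤ C1 s
  nn : normalizer (zpowers s : Set G) ≤ normalizer (E : Set G)
  cardC : Nat.card (C1 s) = 6720
  cent : Nat.card ↥(C1 s ⊓ centralizer (E : Set G)) = 40
  eight : ∃ g ∈ C1 s, g ^ 4 ≠ 1 ∧ g ^ 8 = 1
  frob : ∃ f : G, f * s * f⁻¹ = s ^ 2 ∧ f ^ 4 = 1

variable {s : G} {E : Subgroup G}

theorem C5.conj (h : C5 s E) (g : G) : C5 (g * s * g⁻¹) (cj E g) where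
  ord := (ord_conj g s).trans h.ord
  sq := by
    rintro _ ⟨e, he, rfl⟩
    exact conj_sq (h.sq e he) g
  card := (card_cj E g).trans h.card
  le := H49.cj_centralizer_singleton s g ▸ H49.cj_mono h.le g
  nn := by
    rw [← H49.cj_zpowers, ← cj_N, ← cj_N]
    exact H49.cj_mono h.nn g
  cardC := by rw [← H49.cj_centralizer_singleton, card_cj, h.cardC]
  cent := by
    rw [← H49.cj_centralizer_singleton, ← H49.cj_centralizer, ← H49.cj_inf, card_cj, h.cent]
  eight := by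
    obtain ⟨x, h1, h2, h3⟩ := h.eight
    refine ⟨g * x * g⁻¹, H49.cj_centralizer_singleton s g ▸ H49.conj_mem_cj g h1, ?_, ?_⟩
    · rwa [conj_pow, Ne, conj_eq_one_iff]
    · rwa [conj_pow, conj_eq_one_iff]
  frob := by
    obtain ⟨f, h1, h2⟩ := h.frob
    refine ⟨g * f * g⁻¹, ?_, by rwa [conj_pow, conj_eq_one_iff]⟩
    rw [conj_pow, ← h1]
    group

variable [Finite G]

theorem C5.not_dvd (h : C5 s E) : ¬ 25 ∣ Nat.card G :=
  haveI := Fact.mk Nat.prime_five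
  not_sq_dvd h.ord (by rw [h.cardC]; norm_num)

theorem C5.frob' (h : C5 s E) : ∃ f ∈ normalizer (zpowers s : Set G), f ^ 4 = 1 ∧
    ∀ j : ℕ, f ^ j ∈ C1 s → 4 ∣ j := by
  obtain ⟨f, h1, h2⟩ := h.frob
  have h3 : ∀ j : ℕ, f ^ j * s * (f ^ j)⁻¹ = s ^ 2 ^ j := fun j => by
    induction j with
    | zero => simp
    | succ j ih => rw [pow_succ 2, pow_mul, ← ih, conj_pow, ← h1, pow_succ]; group
  refine ⟨f, mem_N ?_, h2, fun j hj => ?_⟩
  · rintro _ ⟨n, rfl⟩
    rw [← conj_zpow, h1]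
    exact zpow_mem (pow_mem (mem_zpowers s) 2) n
  · rw [pow_eq_pow_mod j h2] at hj
    have := h3 (j % 4)
    rw [mem_C1.1 hj, mul_inv_cancel_right, ← pow_one s, ← pow_mul, pow_eq_pow_iff_modEq,
      h.ord] at this
    have h4 := Nat.mod_lt j (by norm_num : 0 < 4)
    rw [Nat.dvd_iff_mod_eq_zero]
    generalize j % 4 = i at *
    interval_cases i <;> simp_all [Nat.ModEq]

theorem C5.cardN (h : C5 s E) :
    Nat.card (normalizer (zpowers s : Set G)) = 2 ^ 8 * 3 * 5 * 7 := by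
  have := Fact.mk Nat.prime_five
  obtain ⟨r, h1, h2, h3, -⟩ := card_N h.ord
  obtain ⟨f, h4, -, h5⟩ := h.frob'
  rw [h2, Nat.dvd_antisymm h1 (h5 r (h3 f h4)), h.cardC]
  norm_num

theorem C5.twenty (h : C5 s E) : ∃ R : Subgroup G, zpowers s ≤ R ∧
    R ≤ normalizer (zpowers s : Set G) ∧ Nat.card R = 20 ∧
      R ⊓ centralizer (zpowers s : Set G) = zpowers s := by
  obtain ⟨f, h1, h2, h3⟩ := h.frob'
  have h0 : zpowers s ≤ C1 s := zpowers_le.2 (mem_C1.2 rfl)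
  have h4 : ∀ x ∈ zpowers f, x ∈ C1 s → x = 1 := fun x hx hc => by
    obtain ⟨j, rfl⟩ := (mem_powers_iff_mem_zpowers.2 hx)
    obtain ⟨k, rfl⟩ := h3 j hc
    exact (pow_mul f 4 k).trans (by rw [h2, one_pow])
  refine ⟨zpowers f ⊔ zpowers s, le_sup_right, sup_le (zpowers_le.2 h1) le_normalizer, ?_,
    le_antisymm (fun x hx => ?_) (le_inf le_sup_right (h0.trans (cent_zp s).ge))⟩
  · have := H3.card_sup_mul_card_inf_of_le_normalizer (zpowers_le.2 h1)
    rwa [show zpowers f ⊓ zpowers s = ⊥ from eq_bot_iff.2 fun x hx => h4 x hx.1 (h0 hx.2), card_bot, mul_one, Nat.card_zpowers,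
      Nat.card_zpowers, h.ord, Nat.dvd_antisymm (orderOf_dvd_of_pow_eq_one h2)
        (h3 _ (pow_orderOf_eq_one f ▸ one_mem _))] at this
  · obtain ⟨hx, hc⟩ := mem_inf.1 hx
    rw [← SetLike.mem_coe, coe_mul_of_left_le_normalizer_right _ _ (zpowers_le.2 h1)] at hx
    obtain ⟨a, ha, b, hb, rfl⟩ := hx
    rw [cent_zp] at hc
    obtain rfl := h4 a ha ((Subgroup.mul_mem_cancel_right _ (h0 hb)).1 hc)
    exact mul_mem (one_mem _) hb

theorem C5.nC (h : C5 s E) : C1 s ≤ normalizer (E : Set G) := (C1_le_N s).trans h.nn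

theorem C5.main (h : C5 s E) :
    ∃ J : Subgroup G, IsInternalDirectProduct (zpowers s) J (centralizer (zpowers s : Set G)) ∧
      ∃ (E : Subgroup J) (_ : E.Normal), IsElementaryAbelian 2 E ∧ Nat.card E = 8 ∧
        Nonempty (J ⧸ E ≃* L32) ∧ ∀ K : Subgroup J, ¬ E.IsComplement' K := by
  obtain ⟨J, hJ, h1, h2, h3⟩ := exists_split (n := 1344) Nat.prime_five h.ord h.cardC (by norm_num)
  have h4 : E ≤ J := fun e he => by
    have := h3 e (h.le he)
    rwa [show e ^ 5 = (e * e) * (e * e) * e by simp [pow_succ, mul_assoc], h.sq e he, one_mul,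
      one_mul] at this
  obtain ⟨ν, φ, n1, n2, n3, n4⟩ := exists_rep h.sq h.card
  let θ := φ.comp (inclusion (h1.trans h.nC))
  have h5 : E.subgroupOf J = θ.ker := by
    have h6 : E ≤ J ⊓ centralizer (E : Set G) :=
      le_inf h4 fun a ha b hb => comm_of_sq h.sq hb ha
    have h7 := H3.card_sup_mul_card_inf_of_le_normalizer (H := J ⊓ centralizer (E : Set G))
      (inf_le_left.trans (h1.trans (C1_le_N s)))
    rw [show J ⊓ centralizer (E : Set G) ⊓ zpowers s = ⊥ from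
      eq_bot_iff.2 fun x hx => hJ.2.2.2.1.le ⟨hx.2, hx.1.1⟩, card_bot, mul_one, Nat.card_zpowers,
      h.ord] at h7
    have h8 := card_le_of_le (sup_le (inf_le_inf_right _ h1) (zpowers_le.2 ⟨mem_C1.2 rfl,
      fun e he => mem_C1.1 (h.le he)⟩) : J ⊓ centralizer (E : Set G) ⊔ zpowers s ≤ C1 s ⊓ _)
    have h9 := eq_of_le_of_card_ge h6 (by rw [h.card]; rw [h7, h.cent] at h8; omega)
    ext x
    rw [mem_subgroupOf, h9, MonoidHom.mem_ker]
    exact ⟨fun e => (n4 _).2 e.2, fun e => ⟨x.2, (n4 _).1 e⟩⟩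
  have h6 : Nat.card (E.subgroupOf J) = 8 :=
    (Nat.card_congr (subgroupOfEquivOfLe h4).toEquiv).trans h.card
  have h7 : Function.Surjective θ := by
    rw [← MonoidHom.range_eq_top, ← card_eq_iff_eq_top, ← index_ker, H49.card_SL32]
    have := θ.ker.card_mul_index
    rw [← h5, h6, h2, h5] at this
    omega
  have : (E.subgroupOf J).Normal := h5 ▸ θ.normal_ker
  refine ⟨J, hJ, E.subgroupOf J, this, ⟨⟨⟨fun a b => Subtype.ext (Subtype.ext
    (comm_of_sq h.sq a.2 b.2))⟩⟩, fun a ha => Subtype.ext ((pow_two _).trans (h.sq a ha))⟩, h6,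
    ⟨(QuotientGroup.quotientMulEquivOfEq h5).trans
      (QuotientGroup.quotientKerEquivOfSurjective θ h7)⟩, fun K hK => ?_⟩
  obtain ⟨g, g1, g2, g3⟩ := h.eight
  have g4 : g ∈ J := by
    have := J.pow_mem (h3 g g1) 5
    rwa [← pow_mul, pow_eq_pow_mod _ g3, pow_one] at this
  obtain ⟨⟨⟨e, he⟩, k, hk⟩, e1, -⟩ := hK.existsUnique ⟨g, g4⟩
  have e2 : θ k = θ ⟨g, g4⟩ := by rw [← e1, map_mul, (h5 ▸ he : e ∈ θ.ker), one_mul]
  obtain ⟨e3, e4⟩ := sl_aux (θ k).1 (congrArg Subtype.val (show θ k ^ 8 = 1 by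
    rw [e2, ← map_pow, show (⟨g, g4⟩ : J) ^ 8 = 1 from Subtype.ext g3, map_one]))
  have e5 : k ^ 4 = 1 := disjoint_def.1 hK.disjoint (h5 ▸ MonoidHom.mem_ker.2
    ((map_pow θ k 4).trans (Subtype.ext e3))) (K.pow_mem hk 4)
  obtain ⟨a, ha⟩ := n2 e he
  have e6 : ∀ j : ℕ, k.1 ^ j * e.1 * (k.1 ^ j)⁻¹ = ν ((θ k).1 ^ j *ᵥ a) := fun j => by
    rw [← ha, show (θ k).1 ^ j = (θ (k ^ j)).1 from congrArg Subtype.val (map_pow θ k j).symm]
    exact n3 (inclusion (h1.trans h.nC) (k ^ j)) a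
  apply g2
  calc g ^ 4 = k.1 ^ 0 * e.1 * (k.1 ^ 0)⁻¹ * (k.1 ^ 1 * e.1 * (k.1 ^ 1)⁻¹) *
        (k.1 ^ 2 * e.1 * (k.1 ^ 2)⁻¹) * (k.1 ^ 3 * e.1 * (k.1 ^ 3)⁻¹) * k.1 ^ 4 := by
        rw [← show e.1 * k.1 = g from congrArg Subtype.val e1]
        simp only [pow_succ, pow_zero, one_mul, mul_assoc, _root_.mul_inv_rev, inv_one,
          inv_mul_cancel_left]
    _ = 1 := by
        rw [e6, e6, e6, e6, ← n1, ← n1, ← n1, ← add_mulVec, ← add_mulVec, ← add_mulVec, pow_zero,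
          pow_one, e4, zero_mulVec, ← coe_pow, e5, coe_one, mul_one]
        exact mul_left_cancel (a := ν 0) (by rw [← n1, add_zero, mul_one])

end Cfsg.Agent.H12.J4
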