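import Cfsg.Agent.H12.J5B
import Cfsg.Agent.H83.J4T

/-!
Local analysis in groups of Janko-four type, part 3: an explicit element of order five.
-/

set_option autoImplicit false
set_option maxRecDepth 100000

namespace Cfsg.Agent.H12.J4

open Subgroup H83 H83.J4 MulAction
open H42 hiding cj mem_cj card_cj
open H49 (cj mem_cj card_cj cj_eq_iff)
open scoped Pointwise

theorem cent_le {x b F n : ℕ} {steps : List (ℕ × ℕ × ℕ)} (hx : inM x = true) (hb : b < 24)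
    (h1 : app x b ≠ b) (hF : ∀ i < 24, tb F i = true → ∃ j < 12, app (ppow x j) b = i) (hn : n ≠ 0)
    (h : fixBd [fixM x] steps F = n) : Nat.card (C1 (toM x)) ≤ (24 - pc (fixM x)) * n := by
  have h2 : ∀ g ∈ C1 (toM x), g • toSet (fixM x) = toSet (fixM x) := fun g hg => by
    rw [← fixSet_toM hx, smul_fixSet_of_comm (mem_C1.1 hg)]
  refine (card_le_ncard_mul _ (pt b) (((toSet (fixM x))ᶜ : Finset GolayPt) : Set GolayPt)
    (Set.toFinite _) fun g hg => ?_).trans (Nat.mul_le_mul ?_ ?_)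
  · rw [Finset.mem_coe, Finset.mem_compl, ← h2 g hg, Finset.smul_mem_smul_finset_iff,
      ← fixSet_toM hx, mem_fixSet, toM_smul_pt hx hb]
    exact fun e => h1 (pt_inj (app_lt_of_isPerm (inM_isPerm hx) hb) hb e)
  · rw [Set.ncard_coe_finset, Finset.card_compl, card_toSet (fixM_lt x)]
    exact le_rfl
  · refine card_le_of_fixBd _ _ (fun g hg c hc => ?_) steps F n (fun g hg => mem_fixS.2 fun p hp => ?_)
      hn h
    · rw [List.mem_singleton.1 hc, h2 g hg.1]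
    · obtain ⟨j, -, e⟩ := hF _ (idx_lt p) (by rw [tb_eq]; exact mem_toSet.1 hp)
      rw [← pt_idx p, ← e, ← toM_smul_pt (inM_ppow hx j) hb, toM_ppow hx, ← mul_smul,
        (Commute.pow_right (mem_C1.1 hg.1) j).eq, mul_smul, mem_stabilizer_iff.1 hg.2]

/-- An element of order five. -/
def p5 : ℕ := 963998191217834094291011081799927840
/-- An involution. -/
def pT : ℕ := 5447382388983081592886053788877911
/-- A generator. -/
def g60 : ℕ := 27675963671255636104165764715645665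
/-- A code of order five. -/
def c5 : ℕ := 260742594263789746124033129242632233770968946864866593804195603959439814091861081985715472416
/-- An outer code. -/
def cTa : ℕ := 130374281095872575184677915414837867730012708494769397821184854328108596472274828410373702743
/-- A code of order four. -/
def cF : ℕ := 86066087245812065111440425674931844626732842482815500385737702261481509461320527263992742976
/-- A conjugating code. -/
def cW : ℕ := 24191529280134184114024227074035597319626229351233000751270657477766546288178946900460883191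

theorem inM_60 : ∀ g ∈ [g60, pT], inM g = true := inM_of_allL (by decide +kernel)
theorem inM_10 : ∀ g ∈ [p5, pT], inM g = true := inM_of_allL (by decide +kernel)
theorem inM_p5 : inM p5 = true := by decide +kernel
theorem inM_pT : inM pT = true := by decide +kernel

theorem cent5 : gen [g60, pT] = C1 (toM p5) :=
  eq_of_le_of_card_ge (gen_le _ fun g hg => mem_C1.2 ((comm_iff (inM_60 g hg) inM_p5).1
    (allL_iff.1 (show allL (fun g => comm g p5) [g60, pT] = true by decide +kernel) g hg))) (by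
  rw [card_gen_of_orbSize inM_60 (fuel := 70) (n := 60) (by norm_num) (by decide +kernel)]
  exact (cent_le (b := 3) (F := 4196936) (n := 3) (steps := [(23,8388615,12580272),
    (0,8388615,8388615),(17,10881097,13771273),(1,8388615,13303882),(2,8388615,8388615),
    (12,14716939,210955),(4,12720156,12720156),(21,11163650,14716939),(15,14716939,14716939),
    (18,4626498,4626498),(8,8657159,8657159),(13,14919680,2422785),(16,14919680,14919680),
    (14,2422785,2422785),(19,4845570,4845570),(20,1302533,1302533),(5,11952160,11952160),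
    (7,4370577,4370577),(10,16777215,16777215)]) inM_p5 (by norm_num) (by decide +kernel)
    (by decide +kernel) (by norm_num) (by decide +kernel)).trans (by decide +kernel))

theorem card10 : Nat.card (gen [p5, pT]) = 10 :=
  card_gen_of_orbSize inM_10 (fuel := 20) (by norm_num) (by decide +kernel)

theorem mem10 {g : M24} (h1 : g ∈ GD2) (h2 : g ∈ C1 (toM p5)) : g ∈ gen [p5, pT] := by
  obtain ⟨y, hy, rfl, h⟩ := forall_gen inM_60 (fuel := 70) (p := fun y => Bool.or (!inD2 y)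
    (anyB (fun i => Bool.or (Nat.beq y (ppow p5 i)) (Nat.beq y (pmul (ppow p5 i) pT))) 5))
    (by decide +kernel) (cent5.ge h2)
  rw [inD2_of_mem hy h1, Bool.not_true, Bool.false_or] at h
  obtain ⟨i, -, h⟩ := anyB_iff.1 h
  have m : toM (ppow p5 i) ∈ gen [p5, pT] := by
    rw [toM_ppow inM_p5]; exact pow_mem (toM_mem_gen (by simp)) i
  rcases Bool.or_eq_true_iff.1 h with h | h <;> rw [beq_iff.1 h]
  · exact m
  · rw [toM_pmul (inM_ppow inM_p5 i) inM_pT]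
    exact mul_mem m (toM_mem_gen (by simp))

theorem invol10 {g : M24} (h1 : g ∈ gen [p5, pT]) (h2 : g * g = 1) : g = 1 ∨ g = toM pT := by
  obtain ⟨y, hy, rfl, h⟩ := forall_gen inM_10 (fuel := 20) (p := fun y => Bool.or
    (!Nat.beq (pmul y y) pid) (Bool.or (Nat.beq y pid) (Nat.beq y pT))) (by decide +kernel) h1
  rw [← toM_pmul hy hy, toM_eq_one_iff (inM_pmul hy hy)] at h2
  rw [h2, beq_iff.2 rfl] at h
  rcases Bool.or_eq_true_iff.1 (show (y.beq pid || y.beq pT) = true from h) with h | h <;>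
    rw [beq_iff.1 h]
  exacts [Or.inl toM_pid, Or.inr rfl]

theorem chk5 : okW 6 [2, 1, 1] = true ∧ kW [2, 1, 1] = c5 ∧ okW 6 [1, 1, 5] = true ∧
    kW [1, 1, 5] = cTa ∧ okW 6 [0, 2, 4, 1, 1, 2, 1, 4, 1, 2, 2, 4] = true ∧
    kW [0, 2, 4, 1, 1, 2, 1, 4, 1, 2, 2, 4] = cF ∧ okW 6 [5, 2, 4, 2, 2, 3, 1] = true ∧
    kW [5, 2, 4, 2, 2, 3, 1] = cW ∧ km (kpw c5 5) = mI ∧ kp c5 = p5 ∧ kp cTa = pT ∧ ko c5 = 0 ∧
    ko cTa = 1 ∧ mm (km c5) (km cTa) = mm (km cTa) (km c5) ∧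
    mm (km (kpw c5 2)) (km cF) = mm (km cF) (km c5) ∧
    cjK [5, 1, 1, 4, 1, 1] (cy 1) (kmul cF cF) = true ∧ pconj (kp cW) pO2 = pT ∧
    km (kmul cTa cTa) = mI ∧ act c5 676 = 676 ∧ qf (lo (qm 676 (act cTa 676))) = 1 := by
  decide +kernel

theorem chkR : allB (fun a => force (lo a) fun v => Bool.and
    (Bool.or (!Nat.beq (act c5 a) a) (Bool.and
      (Bool.or (Nat.beq (mv mA2 v) 0) (Bool.or (Nat.beq (cls v) 2) (Nat.beq (qf v) 1)))
      (Bool.or (Nat.beq (mv mA2 v) 0) (Bool.or (Nat.beq (bf v 1702) 1) (Nat.beq (bf v 2724) 1)))))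
    (Bool.or (!Nat.beq (mv mA2 v) 0) (Bool.and (Nat.beq (act c5 a) a)
      (Bool.or (Nat.beq v 0) (Bool.and (Nat.beq (cls v) 3)
        (Bool.or (Nat.beq (bf v 1026) 1) (Nat.beq (bf v 2726) 1))))))) 8192 = true ∧
    cnt (fun a => Nat.beq (act c5 a) a) 8192 = 32 ∧
    cnt (fun a => Bool.and (Nat.beq (act c5 a) a) (Nat.beq (bf (lo a) 1026) 0)) 8192 = 16 := by
  decide +kernel

theorem chkρ : allB (fun v => Bool.or (Nat.beq v 0) (Bool.and (!Nat.beq (mv (km kR) v) v)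
    (!Nat.beq (mv (km (kmul kR kR)) v) v))) 4096 = true := by decide +kernel

variable {G : Type*} [Group G] [Finite G]

omit [Finite G] in
theorem mul_z_pow (J : JA G) {k : G} (hk : k ∈ J.HH) {n : ℕ} (hn : Odd n) :
    (k * J.z) ^ n = k ^ n * J.z := by
  obtain ⟨m, rfl⟩ := hn
  rw [(show Commute k J.z from J.toHyp.memH.1 hk).mul_pow, pow_succ J.z, pow_mul J.z, pow_two,
    J.toHyp.zz, one_pow, one_mul]

theorem exists_odd (J : JA G) {k : G} {c n : ℕ} (hk : J.KD k c) (hn : Odd n)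
    (h : km (kpw c n) = mI) : ∃ k', J.KD k' c ∧ k' ^ n = 1 := by
  rcases J.uniq1 (hk.pw n) h with e | e
  · exact ⟨k, hk, e⟩
  · exact ⟨k * J.z, J.kd_mul_z hk, by rw [mul_z_pow J hk.mem hn, e, J.toHyp.zz]⟩

theorem conj_odd (J : JA G) {w a b : G} {cw ca cb n : ℕ} (hw : J.KD w cw) (ha : J.KD a ca)
    (hb : J.KD b cb) (e : mm (km cb) (km cw) = mm (km cw) (km ca)) (hn : Odd n) (h1 : a ^ n = 1)
    (h2 : b ^ n = 1) : w * a * w⁻¹ = b :=
  (J.conj_uniq hw ha hb e).resolve_right fun h => J.toHyp.z_ne (by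
    have := mul_z_pow J hb.mem hn
    rwa [← h, conj_pow, h1, h2, one_mul, mul_one, mul_inv_cancel, eq_comm] at this)

omit [Finite G] in
theorem card_Q (J : JA G) {S : Subgroup G} (p : ℕ → Bool)
    (h : ∀ x < 8192, J.e x ∈ S ↔ p x = true) : Nat.card ↥(S ⊓ J.Q) = cnt p 8192 := by
  rw [← ncard_eq_cnt ((S ⊓ J.Q : Subgroup G) : Set G) J.e p 8192
    (fun i hi j hj _ _ e => J.e_inj i hi j hj e) fun x => ⟨fun hx => ?_, ?_⟩]
  · rfl
  · obtain ⟨i, hi, rfl⟩ := J.e_surj x hx.2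
    exact ⟨i, hi, (h i hi).1 hx.1, rfl⟩
  · rintro ⟨i, hi, h1, rfl⟩
    exact ⟨(h i hi).2 h1, J.e_mem i hi⟩

omit [Finite G] in
theorem ordρ (J : JA G) : orderOf J.ρ = 3 :=
  haveI := Fact.mk Nat.prime_three
  orderOf_eq_prime J.ρ3 fun h => J.toHyp.ρ_notMem (h ▸ one_mem _)

theorem card_ker3 (J : JA G) {Y : Subgroup G} (hρ : J.ρ ∈ Y) :
    Nat.card ↥(Y ⊓ J.ker) = 3 * Nat.card ↥(Y ⊓ J.Q) := by
  have h1 : zpowers J.ρ ≤ normalizer ((Y ⊓ J.Q : Subgroup G) : Set G) := zpowers_le.2 (mem_N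
    fun e he => ⟨Y.mul_mem (Y.mul_mem hρ he.1) (Y.inv_mem hρ), J.toHyp.conjQ J.ρH he.2⟩)
  have h2 : Y ⊓ J.ker = zpowers J.ρ ⊔ Y ⊓ J.Q := by
    refine le_antisymm (fun x hx => ?_) (sup_le (zpowers_le.2 ⟨hρ, J.mem_ker.2 ⟨J.ρH, J.toHyp.φ_ρ⟩⟩)
      (inf_le_inf_left _ fun x hx => J.mem_ker.2 ⟨J.toHyp.Q_le hx, J.toHyp.φ_Q hx⟩))
    have m : J.ρ⁻¹ ∈ zpowers J.ρ ⊔ Y ⊓ J.Q := mem_sup_left (inv_mem (mem_zpowers _))
    have m' := Y.inv_mem hρ
    rcases (J.toHyp.φ_ker (J.mem_ker.1 hx.2).1).1 (J.mem_ker.1 hx.2).2 with h | h | h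
    · exact mem_sup_right ⟨hx.1, h⟩
    · exact (Subgroup.mul_mem_cancel_right _ m).1 (mem_sup_right ⟨Y.mul_mem hx.1 m', h⟩)
    · exact (Subgroup.mul_mem_cancel_right _ m).1 ((Subgroup.mul_mem_cancel_right _ m).1
        (mem_sup_right ⟨Y.mul_mem (Y.mul_mem hx.1 m') m', h⟩))
  have h3 := H3.card_sup_mul_card_inf_of_le_normalizer h1
  rwa [← h2, Nat.card_zpowers, ordρ, (inf_eq_bot_of_coprime (H := zpowers J.ρ) (by
    rw [Nat.card_zpowers, ordρ]
    exact Nat.Coprime.of_dvd_right (card_dvd_of_le inf_le_right) (by rw [J.cardQ]; norm_num))),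
    card_bot, mul_one] at h3

theorem mem_Q_of_comm (J : JA G) {y : G} {b : ℕ} (hy : y ∈ J.HH) (h : J.toHyp.φ y = 1)
    (hb : b < 8192) (h0 : lo b ≠ 0) (hc : y * J.e b = J.e b * y) : y ∈ J.Q := by
  have := of_allB chkρ (lo_lt b)
  simp only [Bool.or_eq_true, Bool.and_eq_true, beq_iff, h0, false_or, Bool.not_eq_true',
    beq_false_iff] at this
  rcases (J.toHyp.φ_ker hy).1 h with h | h | h
  · exact h
  · obtain ⟨a, ha, e⟩ := J.e_surj _ h
    rw [← mul_inv_eq_iff_eq_mul.1 e.symm |>.symm] at hc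
    exact absurd (J.fix_of_comm ha hb J.kd_ρ hc) this.1
  · obtain ⟨a, ha, e⟩ := J.e_surj _ h
    rw [show y = J.e a * (J.ρ * J.ρ) by rw [e]; group] at hc
    exact absurd (J.fix_of_comm ha hb (J.kd_ρ.mul J.kd_ρ) hc) this.2

omit [Finite G] in
theorem e_mem_C1 (J : JA G) {k : G} {c a : ℕ} (hk : J.KD k c) (ha : a < 8192) :
    J.e a ∈ C1 k ↔ act c a = a := by
  rw [mem_C1, eq_comm, ← mul_inv_eq_iff_eq_mul, hk.conj a ha]
  exact ⟨J.e_inj _ (act_lt hk.ok ha) _ ha, fun h => by rw [h]⟩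

omit [Finite G] in
theorem eq_of_lo (J : JA G) {a : ℕ} (ha : a < 8192) (h : lo a = 0) : J.e a = 1 ∨ J.e a = J.z := by
  simpa [J.e_zero] using J.e_lo ha (by norm_num : 0 < 8192) h

theorem split5 {s f n : G} (hs : orderOf s = 5) (hf : f * s * f⁻¹ = s ^ 2)
    (hn : n ∈ normalizer (zpowers s : Set G)) : ∃ i : ℕ, n * f ^ i ∈ C1 s := by
  classical
  have h3 : ∀ j : ℕ, f ^ j * s * (f ^ j)⁻¹ = s ^ 2 ^ j := fun j => by
    induction j with
    | zero => simp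
    | succ j ih => rw [pow_succ 2, pow_mul, ← ih, conj_pow, ← hf, pow_succ]; group
  obtain ⟨j, hj, e⟩ := Finset.mem_image.1 (mem_zpowers_iff_mem_range_orderOf.1
    ((mem_normalizer_iff.1 hn s).1 (mem_zpowers s)))
  rw [hs, Finset.mem_range] at hj
  have h4 : ∀ i, j * 2 ^ i ≡ 1 [MOD 5] → n * f ^ i ∈ C1 s := fun i hi => by
    rw [mem_C1, ← mul_inv_eq_iff_eq_mul, show n * f ^ i * s * (n * f ^ i)⁻¹ =
      n * (f ^ i * s * (f ^ i)⁻¹) * n⁻¹ by group, h3, ← conj_pow, ← e, ← pow_mul]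
    exact (pow_eq_pow_iff_modEq.2 (hs ▸ hi)).trans (pow_one s)
  interval_cases j
  · rw [pow_zero, eq_comm, conj_eq_one_iff] at e
    simp [e] at hs
  exacts [⟨0, h4 0 rfl⟩, ⟨3, h4 3 rfl⟩, ⟨1, h4 1 rfl⟩, ⟨2, h4 2 rfl⟩]

theorem not_z (J : JL G) {x : ℕ} (hx : x < 8192) (h : cls (lo x) = 2) : ¬ IsConj J.z (J.e x) :=
  fun e => J.not_conj36 (e.trans (J.conj_cls2 hx h).symm)

theorem card_C1_B (J : JL G) {v : G} (vv : v * v = 1) (h1 : v ≠ 1) (h : ¬ IsConj J.z v) :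
    Nat.card (C1 v) ∣ 2048 * 244823040 := by
  obtain ⟨g, rfl⟩ := isConj_iff.1 ((J.two_u36 vv h1).resolve_left h)
  rw [← H49.cj_centralizer_singleton, card_cj, ← J.card_M J.hn]
  exact card_dvd_of_le fun c hc => J.cent_u36 (mem_C1.1 hc)

theorem E_conj (J : JL G) {u : G} (hu : u ∈ J.pre mA2) (h1 : u ≠ 1) : IsConj J.z u := by
  obtain ⟨a, ha, h, rfl⟩ := hu
  have := of_allB chkR.1 ha
  simp only [force_eq, h, Bool.and_eq_true, Bool.or_eq_true, beq_iff, Bool.not_eq_true',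
    beq_false_iff, ne_eq, not_true, false_or] at this
  rcases this.2.2 with e | e
  · rw [(eq_of_lo J.toJA ha e).resolve_left h1]
  · exact J.conj_cls3 ha e.1

theorem E_sq (J : JA G) : ∀ u ∈ J.pre mA2, u * u = 1 := J.pre_sq (by decide +kernel)

section
variable (J : JL G) {s : G} (hs : J.KD s c5) (h5 : s ^ 5 = 1)
include hs

theorem ρ_C1 : J.ρ ∈ C1 s := by
  have := hs.ρ
  rw [chk5.2.2.2.2.2.2.2.2.2.2.2.1, pow_zero, mul_one, mul_inv_eq_iff_eq_mul] at this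
  exact mem_C1.2 this.symm

theorem φ_s : J.toHyp.φ s = toM p5 := by rw [hs.φ, chk5.2.2.2.2.2.2.2.2.2.1]

theorem φ10 {x : G} (hx : x ∈ J.HH) (h : x ∈ C1 s) : J.toHyp.φ x ∈ gen [p5, pT] :=
  mem10 (J.toHyp.φ_mem x) (mem_C1.2 (by
    rw [← φ_s J hs, ← J.toHyp.φ_mul hx hs.mem, mem_C1.1 h, J.toHyp.φ_mul hs.mem hx]))

theorem im10 {Y : Subgroup G} (h : Y ≤ C1 s) : J.im Y ≤ gen [p5, pT] := fun g hg => by
  obtain ⟨x, h1, h2, rfl⟩ := J.mem_im.1 hg
  exact φ10 J hs h2 (h h1)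

theorem E_le : J.pre mA2 ≤ C1 s := by
  rintro _ ⟨a, ha, h, rfl⟩
  have := of_allB chkR.1 ha
  simp only [force_eq, h, Bool.and_eq_true, Bool.or_eq_true, beq_iff, Bool.not_eq_true',
    beq_false_iff, ne_eq, not_true, false_or] at this
  exact (e_mem_C1 J.toJA hs ha).2 this.2.1

theorem mem_E0 (hσ : ¬ IsConj J.z J.σ2) {u : G} (hu : u ∈ C1 s) (h : IsConj J.z u)
    (hz : u * J.z = J.z * u) : u ∈ J.pre mA2 := by
  have uH : u ∈ J.HH := mem_C1.2 hz
  have uu : u * u = 1 := by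
    obtain ⟨g, rfl⟩ := isConj_iff.1 h
    exact conj_sq J.toHyp.zz g
  rcases invol10 (φ10 J hs uH hu) (by rw [← J.toHyp.φ_mul uH uH, uu, J.toHyp.φ_one]) with e | e
  · obtain ⟨a, ha, rfl⟩ := J.e_surj _ (J.mem_Q_of_sq uH e uu)
    have := of_allB chkR.1 ha
    simp only [force_eq, (e_mem_C1 J.toJA hs ha).1 hu, Bool.and_eq_true, Bool.or_eq_true, beq_iff,
      Bool.not_eq_true', beq_false_iff, ne_eq, not_true, false_or] at this
    rcases this.1.1 with e | e | e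
    · exact (J.e_mem_pre ha).2 e
    · exact absurd h (not_z J ha e)
    · rw [J.e_sq ha, e, pow_one] at uu
      exact absurd uu J.toHyp.z_ne
  · obtain ⟨-, -, -, -, -, -, k1, k2, -, -, -, -, -, -, -, -, k3, -⟩ := chk5
    have kw := k2 ▸ J.kd_wd k1
    have hi := J.HH.inv_mem kw.mem
    obtain ⟨n, a, ha, e1⟩ := J.eq_ek_outer J.kd_σ2 chk_vO.2.2.2.2.2.2.2.1
      (J.HH.mul_mem (J.HH.mul_mem hi uH) (J.HH.inv_mem hi)) (by
        rw [J.toHyp.φ_conj hi uH, J.toHyp.φ_inv kw.mem, e, ← k3, toM_pconj kw.inM inM_pO2, kw.φ,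
          J.kd_σ2.φ, chk_vO.2.2.2.2.2.1]
        group)
    obtain ⟨q, -, e2⟩ := J.cos_O2 ha (e1 ▸ conj_sq (conj_sq uu _) _)
    exact absurd ((isConj_conj_iff q).1 (e2 ▸ e1 ▸ isConj_conj (isConj_conj h _) _)) hσ

theorem cardB (hσ : ¬ IsConj J.z J.σ2) : Nat.card ↥(C1 s ⊓ C1 (J.e 1026)) ∣ 160 := by
  have lt : 1026 < 8192 := by norm_num
  have hY : C1 s ⊓ C1 (J.e 1026) ≤ J.HH := fun y hy => by
    obtain ⟨h, hh, e⟩ := J.conj_of_cls lt (y := u36) (by decide +kernel) (by decide +kernel)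
      (by decide +kernel)
    have ab := cj_sq J.V_sq h
    have m1 : J.z ∈ cj J.V h := J.toHyp.conj_z hh ▸ H49.conj_mem_cj h J.z_mem_V
    have m2 : J.e 1026 ∈ cj J.V h :=
      e ▸ H49.conj_mem_cj h (J.pre_le_V ((J.e_mem_pre (by decide +kernel)).2 (by decide +kernel)))
    have m3 : y * J.z * y⁻¹ ∈ cj J.V h := (mem_normalizer_iff.1 (cj_N J.V h ▸ mem_cj.2
      (J.cent_u36 (by
        calc _ = h⁻¹ * (y * J.e 1026) * h := by rw [← e]; group
          _ = _ := by rw [mem_C1.1 hy.2, ← e]; group))) _).1 m1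
    have hi := J.HH.inv_mem hh
    have m4 : J.e 2726 ∈ cj J.V h := by
      have := (mem_normalizer_iff.1 (cj_N J.V h ▸ mem_cj.2 ((J.mem_M_iff (J.HH.mul_mem
        (J.HH.mul_mem hi J.ρH) hh)).2 (by
          rw [J.toHyp.φ_mul (J.HH.mul_mem hi J.ρH) hh, J.toHyp.φ_mul hi J.ρH, J.toHyp.φ_ρ,
            J.toHyp.φ_inv hh]
          simp))) _).1 m2
      rwa [J.kd_ρ.conj _ lt, show act kR 1026 = 2726 by decide +kernel] at this
    obtain ⟨a, ha, h1, e1⟩ := mem_E0 J hs hσ (mul_mem (mul_mem hy.1 (E_le J hs (J.z_mem_pre _)))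
      (inv_mem hy.1)) (isConj_iff.2 ⟨y, rfl⟩) (comm_of_sq ab m3 m1)
    rw [← e1] at m3
    have b1 := (J.e_comm ha lt).1 (comm_of_sq ab m3 m2)
    have b2 := (J.e_comm ha (by norm_num)).1 (comm_of_sq ab m3 m4)
    have := of_allB chkR.1 ha
    simp only [force_eq, h1, Bool.and_eq_true, Bool.or_eq_true, beq_iff, Bool.not_eq_true',
      beq_false_iff, ne_eq, not_true, false_or] at this
    rw [show bf (lo a) 1026 = 0 from b1, show bf (lo a) 2726 = 0 from b2] at this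
    rcases eq_of_lo J.toJA ha (by simpa using this.2.2) with e2 | e2 <;> rw [e1] at e2
    · exact absurd (conj_eq_one_iff.1 e2) J.toHyp.z_ne
    · exact mem_C1.2 (mul_inv_eq_iff_eq_mul.1 e2)
  rw [J.card_im hY (F := J.Q) fun y hy => ⟨fun h => mem_Q_of_comm J.toJA (hY hy) h lt (by decide)
    (mem_C1.1 hy.2), J.toHyp.φ_Q⟩, card_Q J.toJA _ fun x hx => ?_, chkR.2.2]
  · exact Nat.mul_dvd_mul_left 16 (card10 ▸ card_dvd_of_le (im10 J hs inf_le_left))
  · rw [mem_inf, e_mem_C1 J.toJA hs hx, mem_C1, J.e_comm hx lt, Bool.and_eq_true, beq_iff, beq_iff]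
    rfl

include h5

theorem ord5 : orderOf s = 5 :=
  haveI := Fact.mk Nat.prime_five
  orderOf_eq_prime h5 fun h => by
    have := φ_s J hs
    rw [h, J.toHyp.φ_one, eq_comm, toM_eq_one_iff inM_p5] at this
    exact absurd this (by decide +kernel)

theorem exists_τ : ∃ k, J.KD k cTa ∧ k ∈ C1 s ∧ J.toHyp.φ k = toM pT := by
  obtain ⟨-, -, k1, k2, -, -, -, -, -, -, k3, -, -, k4, -⟩ := chk5
  have kw := k2 ▸ J.kd_wd k1
  exact ⟨_, kw, mem_C1.2 (mul_inv_eq_iff_eq_mul.1 (conj_odd J.toJA kw hs hs k4 (by decide) h5 h5)),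
    by rw [kw.φ, k3]⟩

theorem exists_f : ∃ f ∈ J.HH, f * s * f⁻¹ = s ^ 2 ∧ f ^ 4 = 1 := by
  obtain ⟨-, -, -, -, k1, k2, -, -, -, -, -, -, -, -, k3, k4, -⟩ := chk5
  have kw := k2 ▸ J.kd_wd k1
  refine ⟨_, kw.mem, conj_odd J.toJA kw hs (hs.pw 2) k3 (by decide) h5
    (by rw [← pow_mul, mul_comm, pow_mul, h5, one_pow]), ?_⟩
  rw [show 4 = 2 + 2 from rfl, pow_add, pow_two]
  exact J.sq_of_cjK (J.ky 1 (by norm_num)) (kw.mul kw) k4 (J.ysq (by norm_num))

theorem cardX : Nat.card ↥(C1 s ⊓ C1 J.z) = 960 := by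
  obtain ⟨k, k1, k2, k3⟩ := exists_τ J hs h5
  rw [J.card_im inf_le_right (F := J.ker) fun y hy => ⟨fun h => J.mem_ker.2 ⟨hy.2, h⟩,
    fun h => (J.mem_ker.1 h).2⟩, card_ker3 J.toJA (mem_inf.2 ⟨ρ_C1 J hs, J.ρH⟩), card_Q J.toJA _ fun x hx => ?_,
    chkR.2.1, le_antisymm (im10 J hs inf_le_left) (gen_le _ fun g hg => ?_), card10]
  · rcases List.mem_pair.1 hg with rfl | rfl
    · exact J.mem_im.2 ⟨s, ⟨mem_C1.2 rfl, hs.mem⟩, hs.mem, φ_s J hs⟩
    · exact J.mem_im.2 ⟨k, ⟨k2, k1.mem⟩, k1.mem, k3⟩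
  · rw [mem_inf, e_mem_C1 J.toJA hs hx, beq_iff]
    exact and_iff_left (J.e_H hx)

theorem cardCE : Nat.card ↥(C1 s ⊓ centralizer (J.pre mA2 : Set G)) = 40 := by
  have hY : C1 s ⊓ centralizer (J.pre mA2 : Set G) ≤ J.HH := fun y hy =>
    mem_C1.2 (hy.2 _ (J.z_mem_pre _)).symm
  have l1 : 1702 < 8192 := by norm_num
  have l2 : 2724 < 8192 := by norm_num
  have m1 : J.e 1702 ∈ J.pre mA2 := (J.e_mem_pre l1).2 (by decide +kernel)
  have m2 : J.e 2724 ∈ J.pre mA2 := (J.e_mem_pre l2).2 (by decide +kernel)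
  have h1 : C1 s ⊓ centralizer (J.pre mA2 : Set G) ⊓ J.Q = J.pre mA2 := by
    refine le_antisymm (fun x hx => ?_) (le_inf (le_inf (E_le J hs) fun a ha b hb =>
      comm_of_sq (E_sq J.toJA) hb ha) (J.pre_le _))
    obtain ⟨a, ha, rfl⟩ := J.e_surj _ hx.2
    have := of_allB chkR.1 ha
    simp only [force_eq, (e_mem_C1 J.toJA hs ha).1 hx.1.1, Bool.and_eq_true, Bool.or_eq_true,
      beq_iff, Bool.not_eq_true', beq_false_iff, ne_eq, not_true, false_or] at this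
    rw [show bf (lo a) 1702 = 0 from (J.e_comm ha l1).1 (hx.1.2 _ m1).symm,
      show bf (lo a) 2724 = 0 from (J.e_comm ha l2).1 (hx.1.2 _ m2).symm] at this
    exact (J.e_mem_pre ha).2 (by simpa using this.1.2)
  have h2 := im10 J hs (inf_le_left : _ ⊓ centralizer (J.pre mA2 : Set G) ≤ _)
  have h3 : 5 ∣ Nat.card (J.im (C1 s ⊓ centralizer (J.pre mA2 : Set G))) := by
    have := Fact.mk Nat.prime_five
    rw [← orderOf_toM_prime inM_p5 (p := 5) (by decide +kernel) (by decide +kernel)]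
    exact Subgroup.orderOf_dvd_natCard _ (J.mem_im.2 ⟨s, ⟨mem_C1.2 rfl, fun e he =>
      mem_C1.1 (E_le J hs he)⟩, hs.mem, φ_s J hs⟩)
  have h4 : Nat.card (J.im (C1 s ⊓ centralizer (J.pre mA2 : Set G))) ≠ 10 := fun h => by
    obtain ⟨k, k1, -, k3⟩ := exists_τ J hs h5
    obtain ⟨y, hy, yH, e⟩ := J.mem_im.1 ((eq_of_le_of_card_ge h2 (by rw [h, card10])).ge
      (toM_mem_gen (g := pT) (by simp)))
    obtain ⟨n, a, ha, e1⟩ := J.eq_ek_outer k1 chk5.2.2.2.2.2.2.2.2.2.2.2.2.1 yH (e.trans k3.symm)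
    have hN : J.ρ ∈ normalizer (J.pre mA2 : Set G) :=
      mem_N (J.conj_mem_pre J.kd_ρ (by decide +kernel))
    refine absurd (J.fix_of_comm ha l1 k1 ?_) (by decide +kernel)
    have := hy.2 _ ((mem_normalizer_iff''.1 (pow_mem hN n) _).1 m1)
    calc _ = J.ρ ^ n * (y * ((J.ρ ^ n)⁻¹ * J.e 1702 * J.ρ ^ n)) * (J.ρ ^ n)⁻¹ := by rw [← e1]; group
      _ = _ := by rw [← this, ← e1]; group
  rw [J.card_im hY (F := J.Q) fun y hy => ⟨fun h => mem_Q_of_comm J.toJA (hY hy) h l1 (by decide)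
    (hy.2 _ m1).symm, J.toHyp.φ_Q⟩, h1, J.card_pre_mA2]
  have h6 := Nat.le_of_dvd (by norm_num) (card10 ▸ card_dvd_of_le h2)
  have := Nat.card_pos (α := J.im (C1 s ⊓ centralizer (J.pre mA2 : Set G)))
  omega

theorem conj_C1 {u : G} (hu : u ∈ C1 s) (h : IsConj J.z u) : ∃ c ∈ C1 s, c * J.z * c⁻¹ = u := by
  have := Fact.mk Nat.prime_five
  obtain ⟨f, f1, f2, -⟩ := exists_f J hs h5
  obtain ⟨n, hn, rfl⟩ := norm_conj (ord5 J hs h5) (by rw [J.card_HH]; norm_num) h hs.mem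
    (mem_C1.2 (mem_C1.1 hu).symm)
  obtain ⟨i, hi⟩ := split5 (ord5 J hs h5) f2 hn
  exact ⟨_, hi, by rw [mul_assoc n, mem_C1.1 (J.HH.pow_mem f1 i)]; group⟩

theorem mem_E1 (hσ : ¬ IsConj J.z J.σ2) : ∀ u ∈ C1 s, IsConj J.z u → u ∈ J.pre mA2 := by
  have := Fact.mk Nat.prime_five
  have lt : 1026 < 8192 := by norm_num
  have w1 := not_z J lt (by decide +kernel)
  have ww : J.e 1026 * J.e 1026 = 1 := by
    rw [J.e_sq lt, show qf (lo 1026) = 0 by decide +kernel, pow_zero]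
  have wC := (e_mem_C1 J.toJA hs lt).2 (by decide +kernel)
  have w0 : J.e 1026 ≠ 1 := fun h => absurd (J.e_inj _ lt 0 (by norm_num) (h.trans J.e_zero.symm))
    (by norm_num)
  refine mem_E (ord5 J hs h5) (mem_C1.2 rfl) le_rfl (J.z_mem_pre _) J.toHyp.z_ne (E_le J hs)
    (E_sq J.toJA) (fun u => mem_E0 J hs hσ) (fun u => E_conj J) (fun u => conj_C1 J hs h5)
    (fun v hv vv v1 hn => ?_) ((show 64 ∣ 960 by norm_num).trans
      (cardX J hs h5 ▸ card_dvd_of_le inf_le_left)) wC ww (mem_C1.1 (J.e_H lt)) w1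
    (by rw [J.e_mul_z lt]; exact not_z J (by decide) (by decide +kernel))
  obtain ⟨n, hn', rfl⟩ := norm_conj (ord5 J hs h5) (fun h => absurd (h.trans (card_C1_B J ww w0 w1))
    (by norm_num)) (((J.two_u36 ww w0).resolve_left w1).symm.trans
      ((J.two_u36 vv v1).resolve_left hn)) (mem_C1.2 (mem_C1.1 wC).symm)
    (mem_C1.2 (mem_C1.1 hv).symm)
  rw [card_conj_N hn']
  exact cardB J hs hσ

theorem c5_E (hσ : ¬ IsConj J.z J.σ2) : C5 s (J.pre mA2) where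
  ord := ord5 J hs h5
  sq := E_sq J.toJA
  card := J.card_pre_mA2
  le := E_le J hs
  nn n hn := mem_N fun e he => by
    by_cases h : e = 1
    · simp [h]
    refine mem_E1 J hs h5 hσ _ ?_ (isConj_conj (E_conj J he h) n)
    rw [← cent_zp, ← cj_eq_iff.2 hn, ← H49.cj_centralizer, cent_zp]
    exact H49.conj_mem_cj n (E_le J hs he)
  cardC := by
    have : {y | ∃ k ∈ C1 s, k * J.z * k⁻¹ = y} = (J.pre mA2 : Set G) \ {1} := by
      ext y
      constructor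
      · rintro ⟨k, hk, rfl⟩
        exact ⟨mem_E1 J hs h5 hσ _ (mul_mem (mul_mem hk (E_le J hs (J.z_mem_pre _))) (inv_mem hk))
          (isConj_iff.2 ⟨k, rfl⟩), fun h => J.toHyp.z_ne (conj_eq_one_iff.1 h)⟩
      · exact fun h => conj_C1 J hs h5 (E_le J hs h.1) (E_conj J h.1 h.2)
    rw [card_eq_class _ J.z, cardX J hs h5, this, Set.ncard_sdiff_singleton_of_mem (one_mem _),
      ← Nat.card_coe_set_eq, SetLike.coe_sort_coe, J.card_pre_mA2]
  cent := cardCE J hs h5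
  eight := by
    obtain ⟨k, k1, k2, -⟩ := exists_τ J hs h5
    obtain ⟨-, -, -, -, -, -, -, -, -, -, -, -, -, -, -, -, -, c1, c2, c3⟩ := chk5
    have lt : 676 < 8192 := by norm_num
    have lt' := qm_lt lt (act_lt k1.ok lt)
    have h4 : (J.e 676 * k) ^ 4 = J.z := by
      rw [show 4 = 2 * 2 from rfl, pow_mul, pow_two (J.e 676 * k), J.mul_ek lt lt k1]
      rcases J.uniq1 (k1.mul k1) c1 with e | e <;> rw [e]
      · rw [mul_one, pow_two, J.e_sq lt', c3, pow_one]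
      · rw [(show Commute _ J.z from mem_C1.1 (J.e_H lt')).mul_pow, pow_two, pow_two, J.e_sq lt', c3, pow_one,
          J.toHyp.zz, mul_one]
    refine ⟨_, mul_mem ((e_mem_C1 J.toJA hs lt).2 c2) k2, h4 ▸ J.toHyp.z_ne, ?_⟩
    rw [show 8 = 4 * 2 from rfl, pow_mul, h4, pow_two, J.toHyp.zz]
  frob := let ⟨f, _, h⟩ := exists_f J hs h5; ⟨f, h⟩

end

theorem exists_s5 (J : JA G) : ∃ s, J.KD s c5 ∧ s ^ 5 = 1 :=
  exists_odd J (chk5.2.1 ▸ J.kd_wd chk5.1) (by decide) chk5.2.2.2.2.2.2.2.2.1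

theorem exists_C5 (J : JL G) (hσ : ¬ IsConj J.z J.σ2) {q : G} (hq : orderOf q = 5) :
    ∃ s E, C5 s E ∧ zpowers s = zpowers q := by
  have := Fact.mk Nat.prime_five
  obtain ⟨s, hs, h5⟩ := exists_s5 J.toJA
  have h := c5_E J hs h5 hσ
  obtain ⟨c, -, e⟩ := conj_zp (K := ⊤) (by rw [card_top]; exact h.not_dvd) (mem_top s) (mem_top q)
    h.ord hq
  exact ⟨_, _, h.conj c, by rw [← H49.cj_zpowers, e]⟩

end Cfsg.Agent.H12.J4
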