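import Cfsg.Agent.H12.J5C
import Cfsg.Agent.H83.Cores
import Cfsg.Agent.H3.Frattini

/-!
Local analysis in groups of Janko-four type, part 4: the normaliser of the pure group of order eight.
-/

set_option autoImplicit false

namespace Cfsg.Agent.H12.J4

open Subgroup Matrix
open H49 (cj mem_cj card_cj cj_eq_iff)
open H83.J4 (card_modEq_cent isPGroup_of_sq adj card_adj le_adj adj_le)

theorem two_S5 {A : Subgroup (Equiv.Perm (Fin 5))} [A.Normal] (h : IsPGroup 2 A) : A = ⊥ := by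
  by_contra h1
  obtain ⟨n, hn⟩ := h.exists_card_eq
  have := card_dvd_of_le (Equiv.Perm.alternatingGroup_le_of_normal (by simp)
    ((nontrivial_iff_ne_bot A).2 h1))
  rw [hn, nat_card_alternatingGroup, Nat.card_eq_fintype_card, Fintype.card_fin] at this
  exact absurd (Nat.Prime.dvd_of_dvd_pow Nat.prime_three ((show 3 ∣ _ by decide).trans this))
    (by norm_num)

theorem center_S5 : center (Equiv.Perm (Fin 5)) = ⊥ := by
  by_contra h1
  have h := Equiv.Perm.alternatingGroup_le_of_normal (by simp) ((nontrivial_iff_ne_bot _).2 h1)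
  exact absurd (mem_center_iff.1 (h (Equiv.Perm.mem_alternatingGroup.2
    (by decide : Equiv.Perm.sign (Equiv.swap (0 : Fin 5) 1 * Equiv.swap 1 2) = 1)))
    (Equiv.swap 0 1)) (by decide)

variable {G : Type*} [Group G]

theorem N_le_NC (E : Subgroup G) :
    normalizer (E : Set G) ≤ normalizer (centralizer (E : Set G) : Set G) := fun g hg => by
  rw [← cj_eq_iff, H49.cj_centralizer, cj_eq_iff.2 hg]

/-- The largest normal `2`-subgroup of the centraliser. -/
abbrev LL (E : Subgroup G) : Subgroup G := pCoreOf 2 (centralizer (E : Set G))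

theorem NL (E : Subgroup G) : normalizer (E : Set G) ≤ normalizer (LL E : Set G) :=
  H83.norm_pCoreOf (N_le_NC E)

theorem L_le (E : Subgroup G) : LL E ≤ centralizer (E : Set G) := H83.pCoreOf_le _

theorem pow_card {K : Subgroup G} {x : G} (hx : x ∈ K) : x ^ Nat.card K = 1 :=
  congrArg Subtype.val (pow_card_eq_one' (x := (⟨x, hx⟩ : K)))

theorem exists_sylow [Finite G] {p : ℕ} [Fact p.Prime] {s : G} (hs : orderOf s = p)
    (h : ¬ p ^ 2 ∣ Nat.card G) : ∃ S : Sylow p G, (S : Subgroup G) = zpowers s :=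
  ⟨(IsPGroup.of_card (G := zpowers s) (n := 1) (by rw [Nat.card_zpowers, hs, pow_one])).toSylow fun h1 => h (by
    rw [← (zpowers s).card_mul_index, Nat.card_zpowers, hs, pow_two]
    exact Nat.mul_dvd_mul_left p h1), rfl⟩

variable [Finite G] {s t : G} {E I : Subgroup G}

theorem C5.le_C (h : C5 s E) : E ≤ centralizer (E : Set G) := fun _ ha _ hb => comm_of_sq h.sq hb ha

theorem C5.mem_C (h : C5 s E) : s ∈ centralizer (E : Set G) := fun _ he => mem_C1.1 (h.le he)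

theorem C5.two40 (h : C5 s E) {T : Subgroup G} (h1 : E ≤ T)
    (h2 : T ≤ C1 s ⊓ centralizer (E : Set G)) (h3 : IsPGroup 2 T) : T = E := by
  obtain ⟨n, hn⟩ := h3.exists_card_eq
  have h4 := card_dvd_of_le h2
  rw [hn, h.cent] at h4
  refine (eq_of_le_of_card_ge h1 ?_).symm
  rw [hn, h.card]
  exact Nat.le_of_dvd (by norm_num) (Nat.Coprime.dvd_of_dvd_mul_right (n := 5) (m := 8)
    (Nat.Coprime.pow_left n (by norm_num)) h4)

theorem C5.nosplit (h : C5 s E) {K : Subgroup G} (h1 : K ⊓ E = ⊥)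
    (h2 : ∀ g ∈ C1 s, ∃ e ∈ E, ∃ k ∈ K, e * k = g) : False := by
  obtain ⟨ν, φ, n1, n2, n3, n4⟩ := exists_rep h.sq h.card
  obtain ⟨g, g1, g2, g3⟩ := h.eight
  obtain ⟨e, he, k, hk, rfl⟩ := h2 g g1
  lift k to normalizer (E : Set G) using
    (Subgroup.mul_mem_cancel_left _ (le_normalizer he)).1 (h.nC g1)
  have e2 : φ (⟨e, le_normalizer he⟩ * k) = φ k := by
    rw [map_mul, (n4 _).2 (h.le_C he), one_mul]
  obtain ⟨e3, e4⟩ := sl_aux (φ k).1 (congrArg Subtype.val (show φ k ^ 8 = 1 by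
    rw [← e2, ← map_pow, show (⟨e, le_normalizer he⟩ * k) ^ 8 = 1 from Subtype.ext g3, map_one]))
  obtain ⟨a, ha⟩ := n2 e he
  have e6 : ∀ j : ℕ, k.1 ^ j * e * (k.1 ^ j)⁻¹ = ν ((φ k).1 ^ j *ᵥ a) := fun j => by
    rw [← ha, show (φ k).1 ^ j = (φ (k ^ j)).1 from congrArg Subtype.val (map_pow φ _ j).symm]
    exact n3 (k ^ j) a
  have e7 : (e * k) ^ 4 = k.1 ^ 4 := by
    calc _ = k.1 ^ 0 * e * (k.1 ^ 0)⁻¹ * (k.1 ^ 1 * e * (k.1 ^ 1)⁻¹) *
        (k.1 ^ 2 * e * (k.1 ^ 2)⁻¹) * (k.1 ^ 3 * e * (k.1 ^ 3)⁻¹) * k.1 ^ 4 := by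
          simp only [pow_succ, pow_zero, one_mul, mul_assoc, _root_.mul_inv_rev, inv_one,
            inv_mul_cancel_left]
      _ = _ := by
          rw [e6, e6, e6, e6, ← n1, ← n1, ← n1, ← add_mulVec, ← add_mulVec, ← add_mulVec, pow_zero,
            pow_one, e4, zero_mulVec, show ν 0 = 1 from
              mul_left_cancel (a := ν 0) (by rw [← n1, add_zero, mul_one]), one_mul]
  have e8 : (e * k) ^ 4 ∈ centralizer (E : Set G) := by
    rw [e7]
    exact (n4 (k ^ 4)).1 ((map_pow φ k 4).trans (Subtype.ext e3))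
  have e9 := h.two40 (T := zpowers ((e * k) ^ 4) ⊔ E) le_sup_right (sup_le (zpowers_le.2
    ⟨pow_mem g1 4, e8⟩) (le_inf h.le h.le_C)) (IsPGroup.to_sup_of_normal_right'
      (zp_two (by rw [← pow_add, g3])) (isPGroup_of_sq h.sq)
      (zpowers_le.2 (centralizer_le_normalizer _ e8)))
  exact g2 (mem_bot.1 (h1.le ⟨e7.symm ▸ K.pow_mem hk 4, e9.le (mem_sup_left (mem_zpowers _))⟩))

/-- The local data at commuting elements of orders five and seven. -/
structure P7 (s t : G) (E I : Subgroup G) : Prop extends C5 s E where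
  ordt : orderOf t = 7
  ts : t ∈ C1 s
  prod : IsInternalDirectProduct (zpowers t) I (centralizer (zpowers t : Set G))
  iso : Nonempty (I ≃* Equiv.Perm (Fin 5))
  cardE : Nat.card (centralizer (E : Set G)) = 3932160
  nab : ∃ a ∈ LL E, ∃ b ∈ LL E, a * b ≠ b * a

namespace P7

variable (h : P7 s t E I)
include h

omit [Finite G] in
theorem cardI : Nat.card I = 120 := by
  obtain ⟨e⟩ := h.iso
  rw [Nat.card_congr e.toEquiv, Nat.card_perm, Nat.card_eq_fintype_card, Fintype.card_fin]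
  rfl

omit [Finite G] in
theorem tI : zpowers t ≤ normalizer (I : Set G) := fun a ha =>
  centralizer_le_normalizer _ fun b hb => (h.prod.2.2.1 a ha b hb).symm

theorem cardt : Nat.card (C1 t) = 840 := by
  have := H3.card_sup_mul_card_inf_of_le_normalizer h.tI
  rwa [h.prod.2.2.2.1, h.prod.2.2.2.2, card_bot, mul_one, cent_zp, Nat.card_zpowers, h.ordt,
    h.cardI] at this

omit [Finite G] in
theorem powI {x : G} (hx : x ∈ C1 t) : x ^ 7 ∈ I := by
  rw [← cent_zp, ← h.prod.2.2.2.2, ← SetLike.mem_coe,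
    coe_mul_of_left_le_normalizer_right _ _ h.tI] at hx
  obtain ⟨a, ha, b, hb, rfl⟩ := hx
  change (a * b) ^ 7 ∈ I
  rw [(show Commute a b from h.prod.2.2.1 a ha b hb).mul_pow, show a ^ 7 = 1 from
    h.ordt ▸ Nat.card_zpowers t ▸ pow_card ha, one_mul]
  exact I.pow_mem hb 7

theorem tN : t ∈ normalizer (E : Set G) := h.nC h.ts

theorem I_eq : centralizer (E : Set G) ⊓ C1 t = I := by
  have := Fact.mk Nat.prime_five
  have := Fact.mk Nat.prime_seven
  have h1 : centralizer (E : Set G) ⊓ C1 t ≤ I := fun x hx => by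
    have := I.pow_mem (h.powI hx.2) 3370423
    rwa [← pow_mul, pow_eq_pow_mod _ (h.cardE ▸ pow_card hx.1), pow_one] at this
  have h2 : s ∈ centralizer (E : Set G) ⊓ C1 t := ⟨h.mem_C, mem_C1.2 (mem_C1.1 h.ts).symm⟩
  have h3 := card_modEq_cent (V := centralizer (E : Set G)) (g := t) (p := 7)
    (fun v => (mem_normalizer_iff.1 (N_le_NC E h.tN) v).1) (h.ordt ▸ pow_orderOf_eq_one t)
  refine eq_of_le_of_card_ge h1 (h.cardI.le.trans (Eq.ge ?_))
  refine ((by decide : ∀ n ∈ Nat.divisors 120, 5 ∣ n → 3932160 ≡ n [MOD 7] → n = 15 ∨ n = 120) _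
    (Nat.mem_divisors.2 ⟨h.cardI ▸ card_dvd_of_le h1, by norm_num⟩)
    (h.ord ▸ Subgroup.orderOf_dvd_natCard _ h2) (h.cardE ▸ h3)).resolve_left fun h4 => ?_
  have h5 := rel_mul (zpowers_le.2 h2)
  rw [h4, Nat.card_zpowers, h.ord] at h5
  have h6 := (normal_subgroupOf_iff_le_normalizer (zpowers_le.2 h2)).1
    (normal_of_index_eq_minFac_card (by
      rw [h4]; exact (Nat.eq_of_mul_eq_mul_right (by norm_num) h5 : _ = 3).trans (by norm_num)))
  obtain ⟨r, ⟨k, hk⟩, -, h7, -⟩ := card_N h.ord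
  have h8 := card_dvd_of_le (show centralizer (E : Set G) ⊓ C1 t ≤ C1 s ⊓ centralizer (E : Set G)
    from fun x hx => ⟨by
      have := pow_mem (pow_mem (h7 x (h6 hx)) k) 4
      rwa [← pow_mul x, ← hk, ← pow_mul, pow_eq_pow_mod _ (h4 ▸ pow_card hx), pow_one] at this, hx.1⟩)
  rw [h4, h.cent] at h8
  norm_num at h8

theorem Ct_le : C1 t ≤ normalizer (E : Set G) := by
  rw [← cent_zp, ← h.prod.2.2.2.2]
  exact sup_le (zpowers_le.2 h.tN) (h.I_eq.ge.trans (inf_le_left.trans (centralizer_le_normalizer _)))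

theorem Nt_le : normalizer (zpowers t : Set G) ≤ normalizer (E : Set G) := fun n hn => by
  have := Fact.mk Nat.prime_five
  have h1 : s ∈ C1 t := mem_C1.2 (mem_C1.1 h.ts).symm
  obtain ⟨c, hc, e⟩ := conj_zp (K := C1 t) (by rw [h.cardt]; norm_num) (a := n * s * n⁻¹) (by
    rw [← cent_zp, ← cj_eq_iff.2 hn, ← H49.cj_centralizer, cent_zp]
    exact H49.conj_mem_cj n h1) h1 ((ord_conj n s).trans h.ord) h.ord
  rw [← H49.cj_zpowers, ← H49.cj_mul, cj_eq_iff] at e
  exact (Subgroup.mul_mem_cancel_left _ (h.Ct_le hc)).1 (h.nn e)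

theorem inv7 {W : Subgroup G} (h1 : W ≤ centralizer (E : Set G)) (h2 : IsPGroup 2 W)
    (h3 : normalizer (E : Set G) ≤ normalizer (W : Set G)) :
    W ⊓ I = ⊥ ∧ Nat.card W ≡ 1 [MOD 7] := by
  have := Fact.mk Nat.prime_seven
  obtain ⟨e⟩ := h.iso
  have := normal_subgroupOf_of_le_normalizer
    ((h.I_eq.ge.trans (inf_le_left.trans (centralizer_le_normalizer _))).trans h3)
  have := this.map e.toMonoidHom e.surjective
  have h4 := disjoint_iff.1 (subgroupOf_eq_bot.1 ((map_eq_bot_iff_of_injective _ e.injective).1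
    (two_S5 (h2.comap_subtype.map e.toMonoidHom))))
  have h5 := card_modEq_cent (V := W) (g := t) (p := 7)
    (fun v => (mem_normalizer_iff.1 (h3 h.tN) v).1) (h.ordt ▸ pow_orderOf_eq_one t)
  rw [← inf_eq_left.2 h1, inf_assoc, h.I_eq, h4, card_bot, inf_eq_left.2 h1] at h5
  exact ⟨h4, h5⟩

theorem dich {W : Subgroup G} (h0 : E ≤ W) (h1 : W ≤ centralizer (E : Set G)) (h2 : IsPGroup 2 W)
    (h3 : normalizer (E : Set G) ≤ normalizer (W : Set G)) :
    W ⊓ C1 s = E ∧ (W = E ∨ Nat.card W = 2 ^ 15) := by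
  have := Fact.mk Nat.prime_five
  have h4 := h.two40 (le_inf h0 h.le) (le_inf inf_le_right (inf_le_left.trans h1)) h2.to_inf_left
  have h5 := card_modEq_cent (V := W) (g := s) (p := 5) (fun v => (mem_normalizer_iff.1
    (h3 (centralizer_le_normalizer _ h.mem_C)) v).1) (h.ord ▸ pow_orderOf_eq_one s)
  have h6 := (h.inv7 h1 h2 h3).2
  have h7 := card_dvd_of_le h1
  obtain ⟨n, hn⟩ := h2.exists_card_eq
  rw [h4, h.card] at h5
  rw [h.cardE, hn] at h7
  refine ⟨h4, Or.imp_left (fun e : _ = 8 =>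
    (eq_of_le_of_card_ge h0 (e.trans h.card.symm).le).symm) ?_⟩
  rw [hn] at h5 h6 ⊢
  exact (by decide : ∀ n < 19, 2 ^ n ≡ 8 [MOD 5] → 2 ^ n ≡ 1 [MOD 7] → 2 ^ n = 8 ∨ 2 ^ n = 2 ^ 15)
    n (by
      by_contra h8
      exact absurd ((pow_dvd_pow 2 (not_lt.1 h8)).trans h7) (by norm_num)) h5 h6

theorem EL : E ≤ LL E :=
  H83.le_pCoreOf h.le_C (centralizer_le_normalizer _) (isPGroup_of_sq h.sq)

theorem cardL : Nat.card (LL E) = 2 ^ 15 :=
  (h.dich h.EL (L_le E) (H83.pCoreOf_isPGroup _) (NL E)).2.resolve_left fun e =>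
    let ⟨_, ha, _, hb, n⟩ := h.nab; n (comm_of_sq h.sq (e.le ha) (e.le hb))

theorem char (K : Subgroup (LL E)) [K.Characteristic] (hK : center _ ≤ K) :
    K.map (LL E).subtype = E ∨ K = ⊤ :=
  (h.dich (W := K.map (LL E).subtype) (fun e he => ⟨⟨e, h.EL he⟩, hK (mem_center_iff.2 fun g =>
    Subtype.ext (L_le E g.2 e he).symm), rfl⟩) ((map_subtype_le _).trans (L_le E))
    (((H83.pCoreOf_isPGroup _).to_subgroup K).map _)
    ((NL E).trans (H83.normalizer_le_norm_char K))).2.imp_right fun e =>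
      eq_top_of_card_eq _ (by rw [← H83.card_map_subtype, e, h.cardL])

omit [Finite G] in
theorem cen_ne : center (LL E) ≠ ⊤ := fun e =>
  let ⟨a, ha, b, hb, n⟩ := h.nab
  n (congrArg Subtype.val (mem_center_iff.1 (e.ge (mem_top (⟨b, hb⟩ : LL E))) ⟨a, ha⟩))

theorem cen : (center (LL E)).map (LL E).subtype = E := (h.char _ le_rfl).resolve_right h.cen_ne

theorem card_cen : Nat.card (center (LL E)) = 8 := by rw [← H83.card_map_subtype, h.cen, h.card]

theorem special : IsSpecial 2 (LL E) := by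
  have h1 : frattini (LL E) ≤ center _ := le_sup_right.trans (map_injective (subtype_injective _)
    (((h.char (center _ ⊔ frattini _) le_sup_left).resolve_right fun e =>
      h.cen_ne (frattini_nongenerating e)).trans h.cen.symm)).le
  have h2 := H3.commutator_le_frattini (H83.pCoreOf_isPGroup (p := 2) (centralizer (E : Set G)))
  have h3 := (h.inv7 ((map_subtype_le _).trans (L_le E))
    (((H83.pCoreOf_isPGroup _).to_subgroup (commutator (LL E))).map _)
    ((NL E).trans (H83.normalizer_le_norm_char _))).2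
  rw [H83.card_map_subtype] at h3
  have h4 : commutator (LL E) = center _ := eq_of_le_of_card_ge (h2.trans h1) (h.card_cen.trans
    (((by decide : ∀ n ∈ Nat.divisors 8, n ≡ 1 [MOD 7] → n = 1 ∨ n = 8) _ (Nat.mem_divisors.2
      ⟨h.card_cen ▸ card_dvd_of_le (h2.trans h1), by norm_num⟩) h3).resolve_left fun e => h.cen_ne
        (eq_top_iff.2 fun a _ => mem_center_iff.2 fun b => commutatorElement_eq_one_iff_mul_comm.1
          (mem_bot.1 ((card_eq_one.1 e).le
            (commutator_mem_commutator (mem_top b) (mem_top a)))))).symm).le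
  exact ⟨H83.pCoreOf_isPGroup _, le_antisymm h1 (h4.ge.trans h2), h4⟩

theorem N_eq : normalizer (LL E : Set G) = normalizer (E : Set G) :=
  le_antisymm (by simpa only [h.cen] using H83.normalizer_le_norm_char (center (LL E))) (NL E)

theorem exists_I {c : G} (hc : c ∈ centralizer (E : Set G)) : ∃ i : I, c * i.1⁻¹ ∈ LL E := by
  have h1 := h.I_eq.ge.trans inf_le_left
  have h2 := h1.trans ((centralizer_le_normalizer _).trans (NL E))
  have h3 := H3.card_sup_mul_card_inf_of_le_normalizer h2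
  rw [inf_comm, (h.inv7 (L_le E) (H83.pCoreOf_isPGroup _) (NL E)).1, card_bot, mul_one, h.cardI,
    h.cardL] at h3
  rw [← eq_of_le_of_card_ge (sup_le h1 (L_le E)) (by rw [h3, h.cardE]; norm_num), ← SetLike.mem_coe,
    coe_mul_of_left_le_normalizer_right _ _ h2] at hc
  obtain ⟨a, ha, b, hb, rfl⟩ := hc
  exact ⟨⟨a, ha⟩, (mem_normalizer_iff.1 (h2 ha) b).1 hb⟩

theorem quot (φ : normalizer (LL E : Set G) →* L32) (h1 : Function.Surjective φ)
    (h2 : ∀ g, φ g = 1 ↔ g.1 ∈ centralizer (E : Set G)) :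
    Nonempty (normalizer (LL E : Set G) ⧸ (LL E).subgroupOf (normalizer (LL E : Set G)) ≃*
      Equiv.Perm (Fin 5) × L32) := by
  obtain ⟨e⟩ := h.iso
  have IC := h.I_eq.ge.trans inf_le_left
  have IN := IC.trans ((centralizer_le_normalizer _).trans (NL E))
  have un : ∀ {c : G} {i j : I}, c * i.1⁻¹ ∈ LL E → c * j.1⁻¹ ∈ LL E → i = j := fun {c i j} a b =>
    mul_inv_eq_one.1 (Subtype.ext (mem_bot.1 ((h.inv7 (L_le E) (H83.pCoreOf_isPGroup _)
      (NL E)).1.le ⟨by simpa [mul_assoc] using mul_mem (inv_mem a) b, (i * j⁻¹).2⟩)))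
  choose π hπ using fun c : φ.ker => h.exists_I ((h2 _).1 c.2)
  let ψ : φ.ker →* I := MonoidHom.mk' π fun c d => un (hπ _) (by
    simpa [mul_assoc] using mul_mem ((mem_normalizer_iff.1 c.1.2 _).1 (hπ d)) (hπ c))
  let L' := (LL E).subgroupOf (normalizer (LL E : Set G))
  let T := (centralizer (φ.ker.map (QuotientGroup.mk' L') : Set _)).comap (QuotientGroup.mk' L')
  have := H49.SL32_simple
  have hT : T.map φ = ⊤ := (Normal.map inferInstance φ h1).eq_bot_or_eq_top.resolve_left fun e => by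
    have := Subgroup.orderOf_dvd_natCard _ ((h2 ⟨t, NL E h.tN⟩).1 (mem_bot.1 (e.le
      (mem_map_of_mem φ (x := ⟨t, NL E h.tN⟩) (by
        rintro _ ⟨c, hc, rfl⟩
        rw [show QuotientGroup.mk' L' c = QuotientGroup.mk' L' ⟨π ⟨c, hc⟩, IN (π _).2⟩ from
          QuotientGroup.eq_iff_div_mem.2 (by rw [div_eq_mul_inv]; exact hπ ⟨c, hc⟩), ← map_mul,
          ← map_mul]
        exact congrArg _ (Subtype.ext (mem_C1.1 (h.I_eq.ge (π _).2).2)))))))
    rw [h.ordt, h.cardE] at this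
    norm_num at this
  obtain ⟨θ, t1, t2⟩ := H49.prod_quot φ (e.toMonoidHom.comp ψ) (e.surjective.comp fun i =>
    ⟨⟨⟨i, IN i.2⟩, (h2 _).2 (IC i.2)⟩, un (hπ _) (by simp)⟩) center_S5 fun a => by
      obtain ⟨y, hy, rfl⟩ := hT.ge (mem_top a)
      refine ⟨y, rfl, fun c => congrArg e (un (hπ _) ?_)⟩
      have := hy _ (mem_map_of_mem _ c.2)
      rw [← map_mul, ← map_mul, eq_comm] at this
      have := mul_mem (mem_subgroupOf.1 (QuotientGroup.eq_iff_div_mem.1 this))
        (hπ c)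
      change _ * (π c).1⁻¹ ∈ _
      simpa [div_eq_mul_inv, mul_assoc] using this
  have k : L' = (φ.prod θ).ker := by
    ext g
    rw [MonoidHom.mem_ker, MonoidHom.prod_apply, Prod.mk_eq_one]
    refine ⟨fun a => ?_, fun ⟨a, b⟩ => ?_⟩
    · have b := (h2 g).2 (L_le E a)
      exact ⟨b, (t1 ⟨g, b⟩).trans ((congrArg e (un (j := 1) (hπ _) (by simpa using mem_subgroupOf.1 a))).trans
        (map_one e))⟩
    · have := hπ ⟨g, a⟩
      rw [show π ⟨g, a⟩ = 1 from e.injective (((t1 ⟨g, a⟩).symm.trans b).trans (map_one e).symm)]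
        at this
      exact mem_subgroupOf.2 (by simpa using this)
  exact ⟨(QuotientGroup.quotientMulEquivOfEq k).trans
    ((QuotientGroup.quotientKerEquivOfSurjective _ t2).trans MulEquiv.prodComm)⟩

theorem nocompl (K : Subgroup (normalizer (LL E : Set G))) :
    ¬ ((LL E).subgroupOf (normalizer (LL E : Set G))).IsComplement' K := fun hK => by
  have := Fact.mk Nat.prime_five
  have sN := NL E (centralizer_le_normalizer _ h.mem_C)
  have h1 := h.ord ▸ Subgroup.orderOf_dvd_natCard _ sN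
  rw [← hK.card_mul, H83.card_subgroupOf le_normalizer, h.cardL] at h1
  obtain ⟨⟨⟨q, qN⟩, qK⟩, hq⟩ := exists_prime_orderOf_dvd_card' (G := K) 5
    (Nat.Coprime.dvd_of_dvd_mul_left (by norm_num) h1)
  rw [orderOf_mk, orderOf_mk] at hq
  obtain ⟨c, hc, e⟩ := conj_zp (fun a => h.not_dvd (a.trans (card_subgroup_dvd_card _))) qN sN hq
    h.ord
  have h2 : ∀ x ∈ cj (K.map (Subgroup.subtype _)) c, x ∈ LL E → x = 1 := fun x hx hl => by
    obtain ⟨y, hy, e⟩ := mem_cj.1 hx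
    have := congrArg Subtype.val (disjoint_def.1 hK.disjoint (x := y)
      (mem_subgroupOf.2 (by
        rw [show y.1 = _ from e]; exact (mem_normalizer_iff''.1 hc x).1 hl)) hy)
    rw [show y.1 = _ from e] at this
    simpa using conj_eq_one_iff.1 (show c⁻¹ * x * c⁻¹⁻¹ = 1 by simpa using this)
  have h3 : s ∈ cj (K.map (Subgroup.subtype _)) c :=
    H49.cj_mono (zpowers_le.2 (mem_map_of_mem (Subgroup.subtype _) qK)) c (e.ge (mem_zpowers s))
  refine h.nosplit (eq_bot_iff.2 fun x hx => h2 x hx.1 (h.EL hx.2)) fun g hg => ?_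
  obtain ⟨⟨⟨l, hl⟩, k, hk⟩, e1, -⟩ := hK.existsUnique
    ⟨c⁻¹ * g * c, mul_mem (mul_mem (inv_mem hc) (NL E (h.nC hg))) hc⟩
  have e2 : c * l * c⁻¹ * (c * k * c⁻¹) = g := by
    rw [conj_mul, show l.1 * k.1 = c⁻¹ * g * c from congrArg Subtype.val e1]; group
  have m1 := (mem_normalizer_iff.1 hc l).1 hl
  have m2 := H49.conj_mem_cj c (mem_map_of_mem (Subgroup.subtype _) hk)
  change c * k.1 * c⁻¹ ∈ _ at m2
  generalize c * l.1 * c⁻¹ = a at *
  generalize c * k.1 * c⁻¹ = b at *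
  have m3 : b ∈ C1 s := mem_C1.2 (mul_inv_eq_iff_eq_mul.1 (mul_inv_eq_one.1 (h2 _
    (mul_mem (mul_mem (mul_mem m2 h3) (inv_mem m2)) (inv_mem h3)) (by
      rw [show b * s * b⁻¹ * s⁻¹ = a⁻¹ * (a * b * s) * (a * b)⁻¹ * a * s⁻¹ by group, e2, mem_C1.1 hg]
      simpa [mul_assoc] using mul_mem (inv_mem m1) ((mem_normalizer_iff.1 sN _).1 m1)))))
  exact ⟨a, (h.dich h.EL (L_le E) (H83.pCoreOf_isPGroup _) (NL E)).1.le
    ⟨m1, (Subgroup.mul_mem_cancel_right _ m3).1 (e2 ▸ hg)⟩, b, m2, e2⟩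

theorem main {K : Subgroup G} (k1 : K ≤ normalizer (E : Set G)) (k2 : Nat.card K = 168)
    (k3 : K ⊓ centralizer (E : Set G) = ⊥) :
    ∃ L : Subgroup G, IsSpecial 2 L ∧ Nat.card L = 2 ^ 15 ∧ Nat.card (center L) = 8 ∧
    Nonempty (normalizer (L : Set G) ⧸ L.subgroupOf (normalizer (L : Set G)) ≃*
      Equiv.Perm (Fin 5) × L32) ∧
    (∀ K : Subgroup (normalizer (L : Set G)),
      ¬ (L.subgroupOf (normalizer (L : Set G))).IsComplement' K) ∧
    (∃ K₁ : Subgroup G, K₁ ≤ normalizer (L : Set G) ∧ Nonempty (K₁ ≃* Equiv.Perm (Fin 5))) ∧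
    (∃ K₂ : Subgroup G, K₂ ≤ normalizer (L : Set G) ∧ Nonempty (K₂ ≃* L32)) ∧
    (∃ Q : Sylow 5 G, normalizer ((Q : Subgroup G) : Set G) ≤ normalizer (L : Set G)) ∧
    (∃ S : Sylow 7 G, normalizer ((S : Subgroup G) : Set G) ≤ normalizer (L : Set G)) := by
  have := Fact.mk Nat.prime_five
  have := Fact.mk Nat.prime_seven
  obtain ⟨ν, φ, -, -, -, n4⟩ := exists_rep h.sq h.card
  have h1 : Function.Bijective (φ.comp (inclusion k1)) :=
    (Nat.bijective_iff_injective_and_card _).2 ⟨(injective_iff_map_eq_one _).2 fun a ha =>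
      Subtype.ext (mem_bot.1 (k3.le ⟨a.2, (n4 _).1 ha⟩)), k2.trans H49.card_SL32.symm⟩
  obtain ⟨Q, hQ⟩ := exists_sylow h.ord h.not_dvd
  obtain ⟨S, hS⟩ := exists_sylow h.ordt (not_sq_dvd h.ordt (by rw [h.cardt]; norm_num))
  refine ⟨LL E, h.special, h.cardL, h.card_cen, h.quot (φ.comp (inclusion h.N_eq.le))
    (fun a => ?_) fun g => n4 _, h.nocompl, ⟨I, h.I_eq.ge.trans (inf_le_left.trans
      ((centralizer_le_normalizer _).trans (NL E))), h.iso⟩, ⟨K, k1.trans (NL E),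
      ⟨MulEquiv.ofBijective _ h1⟩⟩, ⟨Q, hQ ▸ h.nn.trans (NL E)⟩, S, hS ▸ h.Nt_le.trans (NL E)⟩
  obtain ⟨x, rfl⟩ := h1.2 a
  exact ⟨⟨x, NL E (k1 x.2)⟩, rfl⟩

end P7

end Cfsg.Agent.H12.J4
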