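import Cfsg.Agent.H12.J5D
import Cfsg.Agent.S0213

/-!
Local analysis in groups of Janko-four type, part 6: the centraliser of an element of order seven.
-/

set_option autoImplicit false

namespace Cfsg.Agent.H12.J4

open Subgroup
open H49 (cj mem_cj card_cj cj_eq_iff)

theorem card_pairs {α β : Type*} {m n : ℕ} {P : α × α → Prop} {c : α → β}
    (hc : Function.Injective c) (f : Fin m → β) (g : Fin n → β)
    (h : ∀ p, P p → (∃ i, c p.1 = f i) ∧ ∃ j, c p.2 = g j) : Nat.card {p // P p} ≤ m * n := by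
  choose i hi using fun p : {p // P p} => (h p.1 p.2).1
  choose j hj using fun p : {p // P p} => (h p.1 p.2).2
  simpa using Nat.card_le_card_of_injective (fun p => (i p, j p)) fun p q e => Subtype.ext
    (Prod.ext (hc (by rw [hi, hi, (Prod.mk.inj e).1])) (hc (by rw [hj, hj, (Prod.mk.inj e).2])))

variable {G : Type*} [Group G]

theorem of_mem_zp {x y w : G} (xx : x * x = 1) (yy : y * y = 1) (ww : w * w = 1) (x1 : x ≠ 1)
    (y1 : y ≠ 1) (w1 : w ≠ 1) (h : w ∈ zpowers (x * y)) :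
    x * w = w * x ∧ y * w = w * y ∧ x ≠ w ∧ y ≠ w := by
  have ix := inv_eq_of_mul_eq_one_right xx
  have iy := inv_eq_of_mul_eq_one_right yy
  have k : ∀ a : G, a * (x * y) * a⁻¹ = (x * y)⁻¹ → a * w = w * a := fun a ha => by
    obtain ⟨n, rfl⟩ := h
    rw [← mul_inv_eq_iff_eq_mul, ← conj_zpow, ha, inv_zpow]
    exact inv_eq_of_mul_eq_one_right ww
  have h1 := k x (by rw [mul_inv_rev, ix, iy, ← mul_assoc, xx, one_mul])
  have h2 := k y (by rw [mul_inv_rev, ix, iy, mul_assoc, mul_assoc, yy, mul_one])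
  have h3 : x * y = y * x → w = x * y := fun e => ((H49.mem_zpowers_invol (by
    rw [mul_assoc, ← mul_assoc y, ← e, mul_assoc, yy, mul_one, xx])).1 h).resolve_left w1
  refine ⟨h1, h2, fun e => y1 ?_, fun e => x1 ?_⟩ <;> subst e
  · exact mul_eq_left.1 (h3 h2.symm).symm
  · exact mul_eq_right.1 (h3 h1).symm

theorem card_cent_sub {K : Subgroup G} (x : K) : Nat.card (C1 x) = Nat.card ↥(K ⊓ C1 x.1) := by
  rw [← H83.card_map_subtype]
  congr 2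
  ext y
  rw [H83.mem_map_subtype]
  exact ⟨fun ⟨h, e⟩ => ⟨h, mem_C1.2 (congrArg Subtype.val (mem_C1.1 e))⟩,
    fun h => ⟨h.1, mem_C1.2 (Subtype.ext (mem_C1.1 h.2))⟩⟩

theorem idp_cj {A B C : Subgroup G} (h : IsInternalDirectProduct A B C) (g : G) :
    IsInternalDirectProduct (cj A g) (cj B g) (cj C g) :=
  ⟨H49.cj_mono h.1 g, H49.cj_mono h.2.1 g, by
    rintro _ ⟨a, ha, rfl⟩ _ ⟨b, hb, rfl⟩
    rw [← map_mul, h.2.2.1 a ha b hb, map_mul],
    by rw [← H49.cj_inf, h.2.2.2.1, H83.J4.cj_bot], by rw [← H49.cj_sup, h.2.2.2.2]⟩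

/-- The local data at an element of order seven. -/
structure M7 (z s t d u r : G) : Prop where
  ord : orderOf s = 7
  dK : d ∈ C1 s
  uK : u ∈ C1 s
  rK : r ∈ C1 s
  tK : t ∈ C1 s
  tt : t * t = 1
  uu : u * u = 1
  t1 : t ≠ 1
  u1 : u ≠ 1
  td : t * d = d * t
  ud : u * d * u⁻¹ = t * d
  rt : r * t * r⁻¹ = d
  zu : IsConj z u
  zt : ¬ IsConj z t
  card56 : Nat.card ↥(C1 s ⊓ C1 t) = 56
  invt : ∀ x ∈ C1 s, x * t = t * x → x * x = 1 →
    x = 1 ∨ x = t ∨ x = d ∨ x = t * d ∨ x = u ∨ x = t * u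
  card84 : Nat.card ↥(C1 s ⊓ C1 u) = 84
  invu : ∃ σ τ ρ : G, IsConj z σ ∧ ¬ IsConj z τ ∧ ∀ x ∈ C1 s, x * u = u * x → x * x = 1 →
    x = 1 ∨ x = u ∨ ∃ i : Fin 3, x = ρ ^ i.1 * σ * (ρ ^ i.1)⁻¹ ∨ x = ρ ^ i.1 * τ * (ρ ^ i.1)⁻¹
  sub : ∃ S ≤ C1 s, Nat.card S = 24 ∧ u ∈ S

namespace M7

variable {z s t d u r : G} (h : M7 z s t d u r)
include h

theorem dd : d * d = 1 := h.rt ▸ conj_sq h.tt r

theorem dud : d * u * d⁻¹ = t * u := by
  calc _ = d * (u * d * u⁻¹) * u := by rw [inv_eq_of_mul_eq_one_right h.dd]; group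
    _ = _ := by rw [h.ud, h.td, ← mul_assoc, h.dd, one_mul]

theorem sq_du : (d * u) ^ 2 = t := by
  calc _ = d * u * d⁻¹ * u := by rw [inv_eq_of_mul_eq_one_right h.dd, pow_two]; group
    _ = _ := by rw [h.dud, mul_assoc, h.uu, mul_one]

variable [Finite G]

theorem fus {x : G} (hx : x ∈ C1 s) (xx : x * x = 1) (x1 : x ≠ 1) :
    (∃ k ∈ C1 s, k * u * k⁻¹ = x) ∨ ∃ k ∈ C1 s, k * t * k⁻¹ = x := by
  obtain ⟨T, hT, hP⟩ := H98.exists_sylIn_ge (p := 2) (U := zpowers u ⊔ zpowers (d * u))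
    (sup_le (zpowers_le.2 h.uK) (zpowers_le.2 (mul_mem h.dK h.uK)))
    (IsPGroup.to_sup_of_normal_right' (zp_two h.uu) (by
      rintro ⟨_, n, rfl⟩
      refine ⟨2, Subtype.ext ?_⟩
      change ((d * u) ^ n) ^ (2 * 2) = 1
      rw [← zpow_natCast, ← zpow_mul, mul_comm, zpow_mul, zpow_natCast, pow_mul, h.sq_du, pow_two,
        h.tt, one_zpow])
      (zpowers_le.2 (mem_N (by
        rintro _ ⟨n, rfl⟩
        rw [← conj_zpow, show u * (d * u) * u⁻¹ = (d * u)⁻¹ by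
          rw [mul_inv_rev, inv_eq_of_mul_eq_one_right h.dd, inv_eq_of_mul_eq_one_right h.uu,
            mul_assoc, mul_assoc, h.uu, mul_one]]
        exact zpow_mem (inv_mem (mem_zpowers _)) n))))
  have m1 := hP (mem_sup_left (mem_zpowers u))
  have m2 := hP (mem_sup_right (mem_zpowers _))
  have m3 := (Subgroup.mul_mem_cancel_right _ m1).1 m2
  have m4 : t ∈ T := h.sq_du ▸ pow_mem m2 2
  have ne : u * d ≠ d * u := fun e => h.t1 (mul_eq_right.1 (by rw [← h.ud, e, mul_inv_cancel_right]))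
  obtain ⟨y, hy, y1, yy, hTy⟩ := exists_central_invol hT.isPGroup m4 h.t1
  have c1 := mem_C1.1 (hTy m1)
  have c2 := mem_C1.1 (hTy m3)
  have tu : t * u = u * t := by
    rw [← inv_inj, mul_inv_rev, mul_inv_rev, inv_eq_of_mul_eq_one_right h.tt,
      inv_eq_of_mul_eq_one_right h.uu, ← h.dud]
    exact (inv_eq_of_mul_eq_one_right (conj_sq h.uu d)).symm.trans (by
      rw [h.dud, mul_inv_rev, inv_eq_of_mul_eq_one_right h.tt, inv_eq_of_mul_eq_one_right h.uu])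
      |>.symm
  obtain rfl : y = t := by
    rcases h.invt y (hT.le hy) (mem_C1.1 (hTy m4)).symm yy with e | e | e | e | e | e <;> subst e
    · exact absurd rfl y1
    · rfl
    · exact absurd c1 ne
    · exact absurd (mul_left_cancel (a := t) (by rw [← mul_assoc, tu, mul_assoc, c1, mul_assoc])) ne
    · exact absurd c2.symm ne
    · exact absurd (mul_left_cancel (a := t) (by
        rw [← mul_assoc, ← c2, ← mul_assoc, ← h.td, mul_assoc])) ne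
  obtain ⟨g, hg, e⟩ := hT.exists_conj_le (zpowers_le.2 hx) (zp_two xx)
  have m5 : g * x * g⁻¹ ∈ T := e ⟨x, mem_zpowers x, rfl⟩
  have k : ∀ {w}, ∀ k ∈ C1 s, g * x * g⁻¹ = k * w * k⁻¹ → ∃ k ∈ C1 s, k * w * k⁻¹ = x :=
    fun {w} k hk e => ⟨g⁻¹ * k, mul_mem (inv_mem hg) hk, by
      calc _ = g⁻¹ * (k * w * k⁻¹) * g := by group
        _ = _ := by rw [← e]; group⟩
  rcases h.invt _ (hT.le m5) (mem_C1.1 (hTy m5)) (conj_sq xx g) with e | e | e | e | e | e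
  · exact absurd (conj_eq_one_iff.1 e) x1
  · exact Or.inr (k 1 (one_mem _) (by simpa using e))
  · exact Or.inr (k r h.rK (e.trans h.rt.symm))
  · exact Or.inr (k (u * r) (mul_mem h.uK h.rK) (by rw [e, ← h.ud, ← h.rt]; group))
  · exact Or.inl (k 1 (one_mem _) (by simpa using e))
  · exact Or.inl (k d h.dK (e.trans h.dud.symm))

theorem card_le : Nat.card (C1 s) ≤ 840 := by
  obtain ⟨σ, τ, ρ, h1, h2, h3⟩ := h.invu
  have o : ∀ x : C1 s, orderOf x = 2 ↔ x.1 ≠ 1 ∧ x.1 * x.1 = 1 := fun x => by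
    rw [← orderOf_coe, H49.orderOf_two_iff]
  have c : ∀ {x y : C1 s}, IsConj x y → IsConj x.1 y.1 := fun e => (C1 s).subtype.map_isConj e
  have key : ∀ {w : C1 s} {p : C1 s × C1 s}, w.1 ≠ 1 → w.1 * w.1 = 1 → IsConj ⟨u, h.uK⟩ p.1 →
      IsConj ⟨t, h.tK⟩ p.2 → w ∈ zpowers (p.1 * p.2) → (IsConj z p.1.1 ∧ ¬ IsConj z p.2.1) ∧
        (p.1.1 * p.1.1 = 1 ∧ p.2.1 * p.2.1 = 1 ∧ p.1.1 ≠ 1 ∧ p.2.1 ≠ 1) ∧
        p.1.1 * w = w * p.1.1 ∧ p.2.1 * w = w * p.2.1 ∧ p.1.1 ≠ w ∧ p.2.1 ≠ w :=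
    fun {w p} w1 ww a b ⟨n, e⟩ => by
      obtain ⟨g, a'⟩ := isConj_iff.1 (c a)
      obtain ⟨k, b'⟩ := isConj_iff.1 (c b)
      have : p.1.1 * p.1.1 = 1 ∧ p.2.1 * p.2.1 = 1 ∧ p.1.1 ≠ 1 ∧ p.2.1 ≠ 1 :=
        ⟨a' ▸ conj_sq h.uu g, b' ▸ conj_sq h.tt k, fun e => h.u1 (conj_eq_one_iff.1 (a'.trans e)),
          fun e => h.t1 (conj_eq_one_iff.1 (b'.trans e))⟩
      exact ⟨⟨h.zu.trans (c a), fun e => h.zt (e.trans (c b).symm)⟩, this,
        of_mem_zp this.1 this.2.1 ww this.2.2.1 this.2.2.2 w1 ⟨n, congrArg Subtype.val e⟩⟩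
  have zd : ¬ IsConj z d := fun e => h.zt ((isConj_conj_iff r).1 (h.rt.symm ▸ e))
  rw [S0213.result ⟨u, h.uK⟩ ⟨t, h.tK⟩ ((o _).2 ⟨h.u1, h.uu⟩) ((o _).2 ⟨h.t1, h.tt⟩)
    (fun e => h.zt (h.zu.trans (c e))) fun x hx => (h.fus x.2 ((o x).1 hx).2 ((o x).1 hx).1).imp
      (fun ⟨k, hk, e⟩ => isConj_iff.2 ⟨⟨k, hk⟩, Subtype.ext e⟩)
      (fun ⟨k, hk, e⟩ => isConj_iff.2 ⟨⟨k, hk⟩, Subtype.ext e⟩), card_cent_sub, card_cent_sub,
    h.card56, h.card84]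
  refine (add_le_add (Nat.mul_le_mul_left _ (card_pairs Subtype.val_injective
    (fun i : Fin 3 => ρ ^ i.1 * σ * (ρ ^ i.1)⁻¹) (fun i : Fin 3 => ρ ^ i.1 * τ * (ρ ^ i.1)⁻¹) ?_))
    (Nat.mul_le_mul_left _ (card_pairs Subtype.val_injective ![u, t * u] ![d, t * d] ?_))).trans
    (by norm_num) <;> rintro p ⟨a, b, e⟩
  · obtain ⟨⟨a1, a2⟩, ⟨b1, b2, b3, b4⟩, c1, c2, c3, c4⟩ := key (w := ⟨u, h.uK⟩) h.u1 h.uu a b e
    obtain ⟨i, hi⟩ := ((h3 _ p.1.2 c1 b1).resolve_left b3).resolve_left c3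
    obtain ⟨j, hj⟩ := ((h3 _ p.2.2 c2 b2).resolve_left b4).resolve_left c4
    exact ⟨⟨i, hi.resolve_right fun e => h2 ((isConj_conj_iff _).1 (e ▸ a1))⟩,
      j, hj.resolve_left fun e => a2 (e ▸ isConj_conj h1 _)⟩
  · obtain ⟨⟨a1, a2⟩, ⟨b1, b2, b3, b4⟩, c1, c2, c3, c4⟩ := key (w := ⟨t, h.tK⟩) h.t1 h.tt a b e
    constructor
    · rcases h.invt _ p.1.2 c1 b1 with e | e | e | e | e | e
      exacts [absurd e b3, absurd e c3, absurd (e ▸ a1) zd, absurd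
        ((isConj_conj_iff u).1 (h.ud.symm ▸ e ▸ a1)) zd, ⟨0, e⟩, ⟨1, e⟩]
    · rcases h.invt _ p.2.2 c2 b2 with e | e | e | e | e | e
      exacts [absurd e b4, absurd e c4, ⟨0, e⟩, ⟨1, e⟩, absurd (e ▸ h.zu) a2,
        absurd (e ▸ h.dud ▸ isConj_conj h.zu d) a2]

theorem card_eq : ∃ k, 0 < k ∧ k ≤ 5 ∧ Nat.card (C1 s) = 168 * k := by
  obtain ⟨k, hk⟩ : Nat.lcm 56 84 ∣ Nat.card (C1 s) := Nat.lcm_dvd
    (h.card56 ▸ card_dvd_of_le inf_le_left) (h.card84 ▸ card_dvd_of_le inf_le_left)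
  have := h.card_le
  have := Nat.card_pos (α := C1 s)
  rw [show Nat.lcm 56 84 = 168 by norm_num] at hk
  exact ⟨k, by omega, by omega, hk⟩

theorem not_dvd : ¬ 49 ∣ Nat.card G := by
  have := Fact.mk Nat.prime_seven
  obtain ⟨k, h1, h2, h3⟩ := h.card_eq
  exact not_sq_dvd h.ord (by rw [h3]; omega)

theorem main (h5 : 5 ∣ Nat.card (C1 s)) : ∃ I : Subgroup G,
    IsInternalDirectProduct (zpowers s) I (centralizer (zpowers s : Set G)) ∧
      Nonempty (I ≃* Equiv.Perm (Fin 5)) := by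
  have hc : Nat.card (C1 s) = 7 * 120 := by
    obtain ⟨k, h1, h2, h3⟩ := h.card_eq
    omega
  obtain ⟨I, hI, h1, h2, h3⟩ := exists_split Nat.prime_seven h.ord hc (by norm_num)
  obtain ⟨S, s1, s2, s3⟩ := h.sub
  have h4 : S ≤ I := fun x hx => by
    have := I.pow_mem (h3 x (s1 hx)) 7
    rwa [← pow_mul, pow_eq_pow_mod _ (s2 ▸ pow_card hx), pow_one] at this
  have h6 : Nat.card (I ⧸ S.subgroupOf I) = 5 := by
    have := rel_mul h4
    rw [s2, h2] at this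
    exact Nat.eq_of_mul_eq_mul_right (by norm_num : 0 < 24) this
  let N := (S.subgroupOf I).normalCore.map I.subtype
  have n1 : N ≤ S := map_le_iff_le_comap.2 (normalCore_le _)
  have n2 : C1 s ≤ normalizer (N : Set G) := by
    rw [← cent_zp, ← hI.2.2.2.2]
    exact sup_le (fun a ha => centralizer_le_normalizer _ fun b hb =>
      (hI.2.2.1 a ha b (h4 (n1 hb))).symm) H83.le_norm_map_subtype
  have n3 : ∀ w, (∃ k ∈ C1 s, k * w * k⁻¹ ∈ N) → {y | ∃ k ∈ C1 s, k * w * k⁻¹ = y} ⊆ N := by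
    rintro w ⟨k, hk, e⟩ _ ⟨l, hl, rfl⟩
    exact (mem_normalizer_iff.1 (n2 hl) w).1 ((mem_normalizer_iff.1 (n2 hk) w).2 e)
  have c1 := card_eq_class (C1 s) t
  have c2 := card_eq_class (C1 s) u
  rw [hc, h.card56] at c1
  rw [hc, h.card84] at c2
  have n4 : t ∉ N := fun ht => by
    have a1 := n3 t ⟨1, one_mem _, by simpa using ht⟩
    have a3 := Set.ncard_le_ncard a1
    have a4 : N = S := eq_of_le_of_card_ge n1 (by
      obtain ⟨m, hm⟩ := card_dvd_of_le n1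
      rw [← Nat.card_coe_set_eq (N : Set G), SetLike.coe_sort_coe] at a3
      rw [s2] at hm ⊢
      rcases m with _ | _ | m <;> [omega; omega; nlinarith])
    have a5 := Set.ncard_le_ncard (Set.union_subset a1 (n3 u ⟨1, one_mem _, by simpa [a4] using s3⟩))
    rw [Set.ncard_union_eq (Set.disjoint_left.2 (by
      rintro y ⟨k, -, e⟩ ⟨l, -, e'⟩
      exact h.zt ((isConj_conj_iff k).1 (e.symm ▸ e' ▸ isConj_conj h.zu l)))),
      ← Nat.card_coe_set_eq (N : Set G), SetLike.coe_sort_coe, a4, s2] at a5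
    omega
  have n5 : ¬ 2 ∣ Nat.card N := fun h2 => by
    obtain ⟨⟨x, hx⟩, e⟩ := exists_prime_orderOf_dvd_card' 2 h2
    rw [orderOf_mk, H49.orderOf_two_iff] at e
    rcases h.fus (s1 (n1 hx)) e.2 e.1 with ⟨k, hk, rfl⟩ | ⟨k, hk, rfl⟩
    · have := n3 u ⟨k, hk, hx⟩
      exact n4 ((Subgroup.mul_mem_cancel_right _ (this ⟨1, one_mem _, by simp⟩)).1
        (this ⟨d, h.dK, h.dud⟩))
    · exact n4 (n3 t ⟨k, hk, hx⟩ ⟨1, one_mem _, by simp⟩)
  have n6 : Nat.card N = 1 := by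
    refine ((Nat.dvd_prime Nat.prime_three).1 (Nat.Coprime.dvd_of_dvd_mul_left (m := 2 ^ 3)
      (Nat.Coprime.pow_right 3 (Nat.prime_two.coprime_iff_not_dvd.2 n5).symm)
      (show _ ∣ 24 from s2 ▸ card_dvd_of_le n1))).resolve_right fun e => ?_
    have := Fact.mk Nat.prime_three
    obtain ⟨⟨x, hx⟩, e1⟩ := exists_prime_orderOf_dvd_card' 3 e.symm.dvd
    rw [orderOf_mk] at e1
    obtain ⟨m, ⟨k, hk⟩, -, a1, -⟩ := card_N e1
    have a2 := pow_mem (a1 (d * u) (by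
      rw [eq_of_le_of_card_ge (zpowers_le.2 hx) (by rw [e, Nat.card_zpowers, e1])]
      exact n2 (mul_mem h.dK h.uK))) k
    rw [← pow_mul, ← hk, h.sq_du] at a2
    have := Subgroup.orderOf_dvd_natCard (C1 s ⊓ C1 t) ⟨s1 (n1 hx), mem_C1.2 (mem_C1.1 a2).symm⟩
    rw [e1, h.card56] at this
    norm_num at this
  have n7 : Function.Bijective (MulAction.toPermHom I (I ⧸ S.subgroupOf I)) :=
    (Nat.bijective_iff_injective_and_card _).2 ⟨(MonoidHom.ker_eq_bot_iff _).1 (by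
      rw [← normalCore_eq_ker, ← card_eq_one, ← H83.card_map_subtype, n6]),
      by rw [h2, Nat.card_perm, h6]; rfl⟩
  exact ⟨I, hI, ⟨(MulEquiv.ofBijective _ n7).trans (Finite.equivFinOfCardEq h6).permCongrHom⟩⟩

end M7

end Cfsg.Agent.H12.J4
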