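import Cfsg.Agent.H17.LPDefs

/-! LP-EXM01: the trivial module and the natural module. -/

set_option autoImplicit false

namespace Cfsg.Agent.H12.LpExm

open Matrix Cfsg.Agent.H17.LP

theorem exMod0 : ExMod [] := by
  refine ⟨F, inferInstance, inferInstance, inferInstance, Representation.trivial F SL5 F, 1,
    ⟨inferInstance, fun S _ => eq_bot_or_eq_top S⟩, ⟨one_ne_zero, fun i _ => rfl, fun i _ => ?_⟩, ?_⟩
  · simp
  · rw [Nat.card_eq_fintype_card, ZMod.card]; decide

/-- the natural module -/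
def nat : Representation F SL5 (Fin 5 → F) where
  toFun g := Matrix.toLin' g.1
  map_one' := Matrix.toLin'_one
  map_mul' g h := Matrix.toLin'_mul g.1 h.1

theorem nat_ap (g : SL5) (w : Fin 5 → F) : nat g w = g.1 *ᵥ w := Matrix.toLin'_apply g.1 w

theorem step (S : Submodule F (Fin 5 → F)) (h : ∀ g, ∀ w ∈ S, nat g w ∈ S) (w : Fin 5 → F)
    (hw : w ∈ S) (i j : Fin 5) (hij : i ≠ j) (hj : w j ≠ 0) : Pi.single i 1 ∈ S := by
  obtain ⟨g, hg⟩ : ∃ g : SL5, g.1 = transvection i j 1 :=
    ⟨⟨transvection i j 1, det_transvection_of_ne i j hij 1⟩, rfl⟩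
  have k := S.sub_mem (h g w hw) hw
  rw [nat_ap, hg] at k
  have e1 : w j = 1 := by
    revert hj; generalize w j = a; revert a; decide
  have e : transvection i j (1 : F) *ᵥ w - w = Pi.single i 1 := by
    rw [transvection, add_mulVec, one_mulVec, add_sub_cancel_left, single_mulVec, e1, one_mul]
    rfl
  exact e ▸ k

theorem simp_nat : Simp nat := by
  refine ⟨inferInstance, fun S h => ?_⟩
  by_cases hS : S = ⊥
  · exact Or.inl hS
  right
  obtain ⟨w, hw, h0⟩ := (Submodule.ne_bot_iff S).1 hS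
  obtain ⟨j, hj⟩ := Function.ne_iff.1 h0
  have all : ∀ i, (Pi.single i 1 : Fin 5 → F) ∈ S := fun i => by
    by_cases hij : i = j
    · obtain ⟨k, hk⟩ := exists_ne j
      exact step S h _ (step S h w hw k j hk hj) i k (hij ▸ hk.symm) (by simp)
    · exact step S h w hw i j hij hj
  rw [eq_top_iff]
  intro v _
  rw [pi_eq_sum_univ' v]
  exact S.sum_mem fun i _ => S.smul_mem _ (all i)

theorem exMod1 : ExMod [1] := by
  refine ⟨Fin 5 → F, inferInstance, inferInstance, inferInstance, nat, ![1, 0, 0, 0, 0],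
    simp_nat, ⟨by decide, ?_, ?_⟩, ?_⟩
  · simp only [nat_ap]; decide +kernel
  · simp only [nat_ap]; decide +kernel
  · rw [Nat.card_eq_fintype_card, Fintype.card_fun, ZMod.card]; decide

end Cfsg.Agent.H12.LpExm
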