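import Mathlib
import Cfsg.Agent.H45.OnDefs

/-!
An involution that moves a component to another one centralizes the diagonal; two such
diagonals generate the commutators of the component.
-/

set_option autoImplicit false

namespace Cfsg.Agent.H12.OnSwap

open Cfsg.Agent.H45.On

universe u v

theorem diag_comm {G : Type u} [Group G] {a s : G} (ha : a * a = 1)
    (h : s * (a * s * a⁻¹) = (a * s * a⁻¹) * s) :
    (s * (a * s * a⁻¹)) * a = a * (s * (a * s * a⁻¹)) := by
  have hi : a⁻¹ = a := inv_eq_of_mul_eq_one_right ha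
  rw [hi] at h ⊢
  calc s * (a * s * a) * a = s * a * s * (a * a) := by simp only [mul_assoc]
    _ = s * a * s := by rw [ha, mul_one]
    _ = (a * a) * s * a * s := by rw [ha, one_mul]
    _ = a * ((a * s * a) * s) := by simp only [mul_assoc]
    _ = a * (s * (a * s * a)) := by rw [h]

theorem comm_eq {G : Type u} [Group G] {s t p q : G} (hsp : s * p = p * s) (hsq : s * q = q * s)
    (htp : t * p = p * t) (htq : t * q = q * t) (hpq : p * q = q * p) :
    (s * p) * (t * q) * (s * p)⁻¹ * (t * q)⁻¹ = s * t * s⁻¹ * t⁻¹ := by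
  have c1 : Commute s p := hsp
  have c2 : Commute s q := hsq
  have c3 : Commute t p := htp
  have c4 : Commute t q := htq
  have c5 : Commute p q := hpq
  have e1 : (s * p) * (t * q) = (s * t) * (p * q) := by
    calc s * p * (t * q) = s * (p * t) * q := by simp only [mul_assoc]
      _ = s * (t * p) * q := by rw [htp]
      _ = s * t * (p * q) := by simp only [mul_assoc]
  have e2 : (t * q) * (s * p) = (t * s) * (p * q) := by
    calc t * q * (s * p) = t * (q * s) * p := by simp only [mul_assoc]
      _ = t * (s * q) * p := by rw [hsq]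
      _ = t * s * (q * p) := by simp only [mul_assoc]
      _ = t * s * (p * q) := by rw [hpq]
  calc s * p * (t * q) * (s * p)⁻¹ * (t * q)⁻¹
      = (s * p * (t * q)) * ((t * q) * (s * p))⁻¹ := by
        rw [mul_inv_rev (t * q), mul_assoc (s * p * (t * q))]
    _ = (s * t) * (p * q) * ((t * s) * (p * q))⁻¹ := by rw [e1, e2]
    _ = s * t * s⁻¹ * t⁻¹ := by group

theorem swap (sim : SimStmt.{u}) : SwapStmt.{u, v} := by
  intro G Ω _ _ _ _ S x y M a a' hM ha ha' hax hax' hc hc' h1 h2 h3
  have hA : S.C x (cj a M) := by simpa only [hax] using S.conj a hM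
  have hA' : S.C x (cj a' M) := by simpa only [hax'] using S.conj a' hM
  have c1 := S.comm hM hA h1.symm
  have c2 := S.comm hM hA' h2.symm
  have c3 := S.comm hA hA' h3
  have key : M ≤ MulAction.stabilizer G y := by
    refine (sim M (S.simple hM) (S.nab hM)).2.2.2.1 _ fun s hs t ht => ?_
    have p := cj_mem (g := a) hs
    have q := cj_mem (g := a') ht
    have d1 : s * (a * s * a⁻¹) ∈ MulAction.stabilizer G y :=
      hc _ (diag_comm ha (c1 s hs _ p))
    have d2 : t * (a' * t * a'⁻¹) ∈ MulAction.stabilizer G y :=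
      hc' _ (diag_comm ha' (c2 t ht _ q))
    rw [← comm_eq (c1 s hs _ p) (c2 s hs _ q) (c1 t ht _ p) (c2 t ht _ q) (c3 _ p _ q)]
    exact Subgroup.mul_mem _ (Subgroup.mul_mem _ (Subgroup.mul_mem _ d1 d2)
      (Subgroup.inv_mem _ d1)) (Subgroup.inv_mem _ d2)
  exact fun m hm => key hm

end Cfsg.Agent.H12.OnSwap
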