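import Mathlib
import Cfsg.Agent.H41.S6Kit2

/-!
# Conjugates of `t` in the coset `t C(M₀)`
-/

set_option autoImplicit false
set_option maxRecDepth 100000

namespace Cfsg.Agent.H12.S6E

open Cfsg Subgroup
open Cfsg.Agent.H44 Cfsg.Agent.H55.Sp6 Cfsg.Agent.H2.L3E Cfsg.Agent.H41.S6

universe u

section gen

variable {G : Type u} [Group G]

/-- a `2`-subgroup which controls the fusion of `t` and contains its centralizer is Sylow -/
theorem syl [Finite G] {H T : Subgroup G} (hT : T ≤ H) (h2 : IsPGroup 2 T) {t : G} (ht : t ∈ T)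
    (tt : t * t = 1) (hc : ∀ x ∈ H, x * t = t * x → x ∈ T)
    (hf : ∀ y ∈ T, IsConj t y → ∃ τ ∈ T, τ * t * τ⁻¹ = y) {y : G} (hy : y ∈ H)
    (hty : IsConj t y) : ∃ h ∈ H, h * t * h⁻¹ = y := by
  have : Fact (Nat.Prime 2) := ⟨Nat.prime_two⟩
  have h2' : IsPGroup 2 (T.subgroupOf H) := h2.of_equiv (subgroupOfEquivOfLe hT).symm
  obtain ⟨S, hS⟩ := h2'.exists_le_sylow
  have hST : (S : Subgroup H) ≤ T.subgroupOf H := by
    by_contra hne
    have := S.isPGroup'.isNilpotent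
    have hlt : (T.subgroupOf H).subgroupOf (S : Subgroup H) < ⊤ := by
      rw [lt_top_iff_ne_top]
      intro e
      exact hne (subgroupOf_eq_top.mp e)
    obtain ⟨n, hn, hn'⟩ := SetLike.exists_of_lt (Group.normalizerCondition_of_isNilpotent _ hlt)
    have h1 := (mem_normalizer_iff.mp hn ⟨⟨t, hT ht⟩, hS ht⟩).mp ht
    have h3 : ((n : H) : G) * t * ((n : H) : G)⁻¹ ∈ T := h1
    obtain ⟨τ, hτ, e⟩ := hf _ h3 (isConj_iff.mpr ⟨_, rfl⟩)
    have h4 : τ⁻¹ * ((n : H) : G) ∈ T := hc _ (mul_mem (inv_mem (hT hτ)) (n : H).2) (by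
      calc τ⁻¹ * ((n : H) : G) * t
          = τ⁻¹ * (((n : H) : G) * t * ((n : H) : G)⁻¹) * ((n : H) : G) := by group
        _ = t * (τ⁻¹ * ((n : H) : G)) := by rw [← e]; group)
    apply hn'
    show ((n : H) : G) ∈ T
    simpa using mul_mem hτ h4
  have yy : y * y = 1 := by
    obtain ⟨c, rfl⟩ := isConj_iff.mp hty
    rw [conj_mul, tt]; simp
  have hy2 : IsPGroup 2 (zpowers (⟨y, hy⟩ : H)) := by
    rintro ⟨x, k, rfl⟩
    refine ⟨1, Subtype.ext (Subtype.ext ?_)⟩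
    have : y ^ 2 = 1 := by rw [pow_two, yy]
    simp only [pow_one, SubgroupClass.coe_pow, SubgroupClass.coe_zpow,
      OneMemClass.coe_one]
    rw [← zpow_natCast, ← zpow_mul, mul_comm, zpow_mul, zpow_natCast, this, one_zpow]
  obtain ⟨S', hS'⟩ := hy2.exists_le_sylow
  obtain ⟨c, hc'⟩ := MulAction.exists_smul_eq H S' S
  have h5 : c * (⟨y, hy⟩ : H) * c⁻¹ ∈ (S : Subgroup H) := by
    rw [← hc']
    exact ⟨_, hS' (mem_zpowers _), rfl⟩
  have h6 : (c : G) * y * (c : G)⁻¹ ∈ T := hST h5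
  obtain ⟨τ, hτ, e⟩ := hf _ h6 (hty.trans (isConj_iff.mpr ⟨_, rfl⟩))
  exact ⟨(c : G)⁻¹ * τ, mul_mem (inv_mem c.2) (hT hτ), by
    calc (c : G)⁻¹ * τ * t * ((c : G)⁻¹ * τ)⁻¹ = (c : G)⁻¹ * (τ * t * τ⁻¹) * c := by group
      _ = y := by rw [e]; group⟩

/-- `K ∪ tK` -/
def ext (t : G) (K : Subgroup G) (tt : t * t = 1) (hK : ∀ k ∈ K, t * k * t ∈ K) : Subgroup G where
  carrier := {x | x ∈ K ∨ t * x ∈ K}
  one_mem' := Or.inl (one_mem K)
  mul_mem' := by
    have ti : t⁻¹ = t := inv_eq_of_mul_eq_one_right tt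
    rintro x y (hx | hx) (hy | hy)
    · exact Or.inl (mul_mem hx hy)
    · refine Or.inr ?_
      have := mul_mem (hK _ hx) hy
      rwa [show t * x * t * (t * y) = t * x * (t * t) * y by group, tt, mul_one,
        mul_assoc] at this
    · exact Or.inr (by rw [← mul_assoc]; exact mul_mem hx hy)
    · refine Or.inl ?_
      have := mul_mem (hK _ hx) hy
      rwa [show t * (t * x) * t * (t * y) = t * t * x * (t * t) * y by group, tt, mul_one,
        one_mul] at this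
  inv_mem' := by
    have ti : t⁻¹ = t := inv_eq_of_mul_eq_one_right tt
    rintro x (hx | hx)
    · exact Or.inl (inv_mem hx)
    · refine Or.inr ?_
      have := hK _ (inv_mem hx)
      rwa [mul_inv_rev, ti, show t * (x⁻¹ * t) * t = t * x⁻¹ * (t * t) by group, tt,
        mul_one] at this

/-- the elements of `H` which normalise `M` and the coset `tM` -/
def stb (t : G) (H M : Subgroup G) : Subgroup G where
  carrier := {n | n ∈ H ∧ n ∈ normalizer (M : Set G) ∧ ∃ m ∈ M, n * t * n⁻¹ = t * m}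
  one_mem' := ⟨one_mem _, one_mem _, 1, one_mem _, by simp⟩
  mul_mem' := by
    rintro x y ⟨h1, h2, m, hm, e⟩ ⟨h1', h2', m', hm', e'⟩
    refine ⟨mul_mem h1 h1', mul_mem h2 h2', m * (x * m' * x⁻¹),
      mul_mem hm ((mem_normalizer_iff.mp h2 m').mp hm'), ?_⟩
    calc x * y * t * (x * y)⁻¹ = x * (y * t * y⁻¹) * x⁻¹ := by group
      _ = x * t * x⁻¹ * (x * m' * x⁻¹) := by rw [e']; group
      _ = _ := by rw [e, mul_assoc]
  inv_mem' := by
    rintro x ⟨h1, h2, m, hm, e⟩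
    refine ⟨inv_mem h1, inv_mem h2, x⁻¹ * m⁻¹ * x⁻¹⁻¹,
      (mem_normalizer_iff.mp (inv_mem h2) _).mp (inv_mem hm), ?_⟩
    calc x⁻¹ * t * x⁻¹⁻¹ = x⁻¹ * (t * m) * x * (x⁻¹ * m⁻¹ * x⁻¹⁻¹) := by group
      _ = _ := by rw [← e]; group

end gen

section main

variable {G : Type u} [Group G] {ι : Sp →* G} {t : G} {w : ℕ → G} {M0 : Subgroup G}

theorem wM {u : ℕ} (hu : u < 8) : w u ∈ MW ι w := mem_sup_right (subset_closure ⟨u, hu, rfl⟩)

theorem aM {a : Sp} (ha : a ∈ A) : ι a ∈ MW ι w := mem_sup_left (mem_map_of_mem ι ha)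

theorem P3_M (hW : Wv ι t w true true) (hM : MV ι t Lam M0) (hK : K11 ι t w M0) {p : Sp}
    (hp : p ∈ P3) {m : G} (hm : m ∈ MW ι w) : ι p * m * (ι p)⁻¹ ∈ MW ι w := by
  obtain ⟨u, hu, n, hn, rfl⟩ := hK.nf m hm
  rw [← conj_mul, hW.eqv p u (by omega)]
  exact mul_mem (wM (P3_lt hp hu)) (hK.le (hM.nP p hp n hn))

/-- no conjugate of `t` centralises `M₀` -/
theorem notC [Finite G] (h : Hy ι t) (hE : EaC ι t) (hM : MV ι t Lam M0) {y : G}
    (hy : IsConj t y) (hc : ∀ m ∈ M0, m * y = y * m) : False := by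
  obtain ⟨x, rfl⟩ := isConj_iff.mp hy
  have h1 := (hE (M0.map (MulAut.conj x⁻¹).toMonoidHom) (by
    rintro _ ⟨m, hm, rfl⟩
    rw [← map_mul, hM.ea m hm, map_one]) (by
    rintro _ ⟨m, hm, rfl⟩
    show x⁻¹ * m * x⁻¹⁻¹ * t = t * (x⁻¹ * m * x⁻¹⁻¹)
    calc x⁻¹ * m * x⁻¹⁻¹ * t = x⁻¹ * (m * (x * t * x⁻¹)) * x := by group
      _ = _ := by rw [hc m hm]; group)).1
  rw [Nat.card_congr (M0.equivMapOfInjective _ (MulAut.conj x⁻¹).injective).toEquiv.symm,
    h.MV_card Lam_le_A hM, card_Lam] at h1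
  omega

/-- an element centralising `A` and normalising `M` fixes the cosets `w_v M₀` -/
theorem fixw (h : Hy ι t) (hW : Wv ι t w true true) (hM : MV ι t Lam M0) (hK : K11 ι t w M0)
    {n : G} (hA : ∀ a ∈ A, n * ι a = ι a * n) (hn : ∀ m ∈ MW ι w, n * m * n⁻¹ ∈ MW ι w)
    {v : ℕ} (hv : v < 8) : ∃ ψ ∈ M0, n * w v * n⁻¹ = w v * ψ := by
  obtain ⟨v', hv', ψ, hψ, e⟩ := hK.nf _ (hn _ (wM hv))
  have e1 : n * w v * n⁻¹ * (n * w v * n⁻¹) = ι (g v) := by
    rw [conj_mul, hW.sq v (by omega), if_pos rfl, hA _ (g_mem_A hv), mul_inv_cancel_right]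
  have e2 : w v' * ψ * (w v' * ψ) = ι (g v') := by
    rw [show w v' * ψ * (w v' * ψ) = w v' * (ψ * w v') * ψ by group, ← hK.cen _ (wM hv') ψ hψ,
      show w v' * (w v' * ψ) * ψ = w v' * w v' * (ψ * ψ) by group, hM.ea ψ hψ, mul_one,
      hW.sq v' (by omega), if_pos rfl]
  have : v = v' := g_inj (by omega) (by omega) (h.inj (by rw [← e1, ← e2, e]))
  subst this
  exact ⟨ψ, hψ, e⟩

theorem sg_ne : ∀ u < 8, u ≠ 0 → ∃ v < 8, bf v u = 0 ∧ sg v u ≠ 1 := by
  have key : ∀ u < 8, u ≠ 0 → ∃ v < 8, bf v u = 0 ∧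
      ([v, u, v ^^^ u].all (· < 64) && (([] : List ℕ).all (· < 64) &&
        !(cols (wd [v, u, v ^^^ u]) == cols (wd [])))) = true := by decide +kernel
  intro u hu h0
  obtain ⟨v, hv, h1, h2⟩ := key u hu h0
  exact ⟨v, hv, h1, wne h2⟩

theorem ind1 : ∀ u < 8, u ≠ 0 → ∃ v < 8, ∃ z < 8, Ind u v z := by decide +kernel

end main

theorem c3e : C3EStmt.{u} := by
  intro _ G _ _ ι t h hE w M0 hW hM hK hX
  set C := centralizer (M0 : Set G) with hC
  have mC : ∀ {x : G}, x ∈ C ↔ ∀ m ∈ M0, m * x = x * m := mem_centralizer_iff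
  have tM0 : ∀ m ∈ M0, t * m * t ∈ M0 := fun m hm => by
    obtain ⟨γ, hγ, e⟩ := hM.tr m hm
    have : t * m * t = ι γ * m := by
      calc t * m * t = t * (m * t * m⁻¹) * m := by group
        _ = _ := by rw [e, h.ttx]
    rw [this]
    exact mul_mem (hM.le (mem_map_of_mem ι (Lam_le_A hγ))) hm
  have tM : ∀ m ∈ MW ι w, t * m * t ∈ MW ι w := fun m hm => by
    obtain ⟨γ, hγ, e⟩ := (hW.mtr m hm).2
    have : t * m * t = ι γ * m := by
      calc t * m * t = t * (m * t * m⁻¹) * m := by group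
        _ = _ := by rw [e, h.ttx]
    rw [this]
    exact mul_mem (aM hγ) hm
  have tC : ∀ c ∈ C, t * c * t ∈ C := fun c hc => mC.mpr fun m hm => by
    have := mC.mp hc _ (tM0 m hm)
    calc m * (t * c * t) = t * (t * m * t * c) * t := by
          rw [show t * (t * m * t * c) * t = t * t * m * t * c * t by group, h.tt]; group
      _ = t * c * t * m * (t * t) := by rw [this]; group
      _ = _ := by rw [h.tt, mul_one]
  set H := ext t C h.tt tC with hH
  have mH : ∀ {x : G}, x ∈ H ↔ x ∈ C ∨ t * x ∈ C := Iff.rfl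
  set T := stb t H (MW ι w) with hT
  have mT : ∀ {n : G}, n ∈ T ↔ n ∈ H ∧ n ∈ normalizer (MW ι w : Set G) ∧
      ∃ m ∈ MW ι w, n * t * n⁻¹ = t * m := Iff.rfl
  have HA : ∀ x ∈ H, ∀ a ∈ A, x * ι a = ι a * x := fun x hx a ha => by
    have haM := hM.le (mem_map_of_mem ι ha)
    rcases mH.mp hx with hx | hx
    · exact (mC.mp hx _ haM).symm
    · have := mC.mp hx _ haM
      rw [← mul_assoc, ← h.ct, mul_assoc, mul_assoc] at this
      exact (mul_left_cancel this).symm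
  have MC : MW ι w ≤ C := fun m hm => mC.mpr fun n hn => (hK.cen m hm n hn).symm
  have MT : MW ι w ≤ T := fun m hm => by
    obtain ⟨a, ha, e⟩ := (hW.mtr m hm).2
    exact mT.mpr ⟨mH.mpr (Or.inl (MC hm)), le_normalizer hm, _, aM ha, e⟩
  have tT : t ∈ T := mT.mpr ⟨mH.mpr (Or.inr (by rw [h.tt]; exact one_mem _)),
    mem_normalizer_fintype fun m hm => by rw [h.tinv]; exact tM m hm, 1, one_mem _, by simp⟩
  have ET : ∀ x ∈ H, x * t = t * x → x ∈ E3 ι t := fun x hx e =>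
    h.cen_E3 e fun a ha => HA x hx a (Lam_le_A ha)
  have cT : ∀ x ∈ H, x * t = t * x → x ∈ T := fun x hx e => by
    obtain ⟨a, ha, rfl | rfl⟩ := h.mem_E3.mp (ET x hx e)
    · exact MT (aM ha)
    · exact mul_mem tT (MT (aM ha))
  have csq : ∀ y : G, IsConj t y → y * y = 1 := fun y hy => by
    obtain ⟨c, rfl⟩ := isConj_iff.mp hy
    rw [conj_mul, h.tt]; simp
  -- the form of the image of `t`
  have img : ∀ n ∈ T, ∃ u < 8, ∃ a ∈ A, n * t * n⁻¹ = t * w u * ι a := fun n hn => by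
    obtain ⟨-, -, m, hm, e⟩ := mT.mp hn
    obtain ⟨u, hu, a, ha, rfl⟩ := hK.inv m hm (by
      rw [← e]; exact csq _ (isConj_iff.mpr ⟨_, rfl⟩))
    exact ⟨u, hu, a, ha, by rw [e, mul_assoc]⟩
  have fw : ∀ n ∈ T, ∀ v < 8, ∃ ψ ∈ M0, n * w v * n⁻¹ = w v * ψ := fun n hn v hv =>
    fixw h hW hM hK (HA n (mT.mp hn).1)
      (fun m hm => (mem_normalizer_iff.mp (mT.mp hn).2.1 m).mp hm) hv
  have p2 : IsPGroup 2 T := by
    rintro ⟨n, hn⟩
    refine ⟨3, Subtype.ext ?_⟩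
    show n ^ 2 ^ 3 = 1
    obtain ⟨u, hu, a, ha, e⟩ := img n hn
    obtain ⟨ψ, hψ, eψ⟩ := fw n hn u hu
    have nA := HA n (mT.mp hn).1
    have wa : w u * ι a = ι a * w u := (hW.mtr _ (wM hu)).1 a ha
    have ψa : ψ * ι a = ι a * ψ := (hW.mtr _ (hK.le hψ)).1 a ha
    have aa : ι a * ι a = 1 := by rw [← map_mul, A_sq ha, map_one]
    have hψ' : ι (g u) * ψ ∈ M0 := mul_mem (hM.le (mem_map_of_mem ι (g_mem_A hu))) hψ
    have e2 : n * n * t * (n * n)⁻¹ = t * (ι (g u) * ψ) := by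
      calc n * n * t * (n * n)⁻¹ = n * (n * t * n⁻¹) * n⁻¹ := by group
        _ = n * (t * w u * ι a) * n⁻¹ := by rw [e]
        _ = n * t * n⁻¹ * (n * w u * n⁻¹) * (n * ι a * n⁻¹) := by group
        _ = t * w u * (ι a * w u) * (ψ * ι a) := by
          rw [e, eψ, nA a ha, mul_inv_cancel_right]; group
        _ = t * (w u * w u) * (ι a * (ψ * ι a)) := by rw [← wa]; group
        _ = _ := by
          rw [ψa, ← mul_assoc (ι a), aa, one_mul, hW.sq u (by omega), if_pos rfl, mul_assoc]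
    have e3 := csq _ (isConj_iff.mpr ⟨_, e2⟩)
    obtain ⟨b, hb, eb⟩ := hM.ker _ hψ' (by
      have e4 := hM.ea _ hψ'
      generalize ι (g u) * ψ = z at e3 e4
      calc z * t = t * (t * z * (t * z)) * z := by
            rw [show t * (t * z * (t * z)) * z = t * t * z * t * (z * z) by group, h.tt, e4]
            group
        _ = _ := by rw [e3, mul_one])
    rw [← eb] at e2
    have hnH := (mT.mp hn).1
    have e5 : n * n * (n * n) * t = t * (n * n * (n * n)) := by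
      have nb : n * n * ι b * (n * n)⁻¹ = ι b := by
        rw [HA _ (mul_mem hnH hnH) b hb, mul_inv_cancel_right]
      calc n * n * (n * n) * t = n * n * (n * n * t * (n * n)⁻¹) * (n * n)⁻¹ * (n * n * (n * n)) := by
            group
        _ = n * n * (t * ι b) * (n * n)⁻¹ * (n * n * (n * n)) := by rw [e2]
        _ = n * n * t * (n * n)⁻¹ * (n * n * ι b * (n * n)⁻¹) * (n * n * (n * n)) := by
            simp only [mul_assoc, mul_inv_rev, inv_mul_cancel_left]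
        _ = _ := by
            rw [e2, nb, mul_assoc t, ← map_mul, A_sq hb, map_one, mul_one]
    have e6 := h.E3_sq (ET _ (mul_mem (mul_mem hnH hnH) (mul_mem hnH hnH)) e5)
    rw [← e6, show 2 ^ 3 = 8 from rfl]
    simp only [pow_succ, pow_zero, one_mul, mul_assoc]
  -- the involutions of `tM`
  have cls : ∀ u < 8, IsConj t (t * w u) → ∃ τ ∈ T, τ * t * τ⁻¹ = t * w u := fun u hu hc => by
    by_cases h0 : u = 0
    · subst h0
      exact ⟨1, one_mem _, by rw [hW.w0]; simp⟩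
    obtain ⟨v, -, z, -, hI⟩ := ind1 u hu h0
    obtain ⟨p, hp, e1, -, -⟩ := gl hI
    have ep : ι p * (t * w 1) * (ι p)⁻¹ = t * w u := by
      rw [← conj_mul, h.conj_t, hW.eqv p 1 (by omega), e1]
    obtain ⟨x, x1, x2, x3⟩ := hX (hc.trans (isConj_iff.mpr ⟨ι p, ep⟩).symm)
    have e4 : ι p * x * (ι p)⁻¹ * t * (ι p * x * (ι p)⁻¹)⁻¹ = t * w u := by
      have := h.conj_t p⁻¹
      rw [map_inv, inv_inv] at this
      calc ι p * x * (ι p)⁻¹ * t * (ι p * x * (ι p)⁻¹)⁻¹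
          = ι p * (x * ((ι p)⁻¹ * t * ι p) * x⁻¹) * (ι p)⁻¹ := by group
        _ = _ := by rw [this, x3, ep]
    refine ⟨ι p * x * (ι p)⁻¹, mT.mpr ⟨mH.mpr (Or.inl (mC.mpr fun m hm => ?_)),
      mem_normalizer_fintype fun m hm => ?_, _, wM hu, e4⟩, e4⟩
    · have := x1 _ (hM.nP _ (inv_mem hp) m hm)
      rw [map_inv, inv_inv] at this
      calc m * (ι p * x * (ι p)⁻¹) = ι p * ((ι p)⁻¹ * m * ι p * x) * (ι p)⁻¹ := by group
        _ = _ := by rw [← this]; group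
    · have := P3_M hW hM hK hp (x2 _ (P3_M hW hM hK (inv_mem hp) hm))
      rw [map_inv, inv_inv] at this
      rw [show ι p * x * (ι p)⁻¹ * m * (ι p * x * (ι p)⁻¹)⁻¹ =
        ι p * (x * ((ι p)⁻¹ * m * ι p) * x⁻¹) * (ι p)⁻¹ by group]
      exact this
  have fus : ∀ y ∈ T, IsConj t y → ∃ τ ∈ T, τ * t * τ⁻¹ = y := fun y hy hty => by
    have yH := (mT.mp hy).1
    have yy := csq y hty
    have yC : y ∉ C := fun hc => notC h hE hM hty (mC.mp hc)
    have tyC : t * y ∈ C := (mH.mp yH).resolve_left yC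
    obtain ⟨u, hu, a, ha, e⟩ := img y hy
    have h0 : u = 0 := by
      by_contra h0
      obtain ⟨v, hv, b0, hσ⟩ := sg_ne u hu h0
      obtain ⟨ψ, hψ, eψ⟩ := fw y hy v hv
      have yi : y⁻¹ = y := inv_eq_of_mul_eq_one_right yy
      have e1 : y * ψ = ψ * y := by
        have e2 : w v * (ψ * (y * ψ * y⁻¹)) = w v * 1 := by
          calc w v * (ψ * (y * ψ * y⁻¹)) = y * w v * y⁻¹ * (y * ψ * y⁻¹) := by rw [eψ]; group
            _ = y * (w v * ψ) * y⁻¹ := by group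
            _ = y * (y * w v * y⁻¹) * y⁻¹ := by rw [eψ]
            _ = y * y * w v * (y * y)⁻¹ := by group
            _ = _ := by rw [yy]; simp
        have e3 := mul_left_cancel e2
        calc y * ψ = ψ * ψ * (y * ψ * y⁻¹) * y := by rw [hM.ea ψ hψ]; group
          _ = ψ * (ψ * (y * ψ * y⁻¹)) * y := by group
          _ = _ := by rw [e3, mul_one]
      obtain ⟨b, hb, rfl⟩ := hM.ker ψ hψ (by
        have := mC.mp tyC ψ hψ
        rw [mul_assoc, e1, ← mul_assoc, ← mul_assoc] at this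
        exact mul_right_cancel this)
      have wuA := (hW.mtr _ (wM (ι := ι) hu)).1
      have wvA := (hW.mtr _ (wM (ι := ι) hv)).1
      have e4 : y * (w v * t * (w v)⁻¹) * y⁻¹ = t * w u * ι a * ι (g v) := by
        rw [hW.tr v (by omega), ← conj_mul, e, HA y yH _ (g_mem_A hv), mul_inv_cancel_right]
      have e5 : y * (w v * t * (w v)⁻¹) * y⁻¹ = t * ι (g v) * (ι (sg v u) * w u) * ι a := by
        have c1 : ι b * (t * w u * ι a) = t * w u * ι a * ι b := by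
          rw [← mul_assoc, ← mul_assoc, ← h.ct, mul_assoc t, ← wuA b hb, mul_assoc, mul_assoc,
            ← map_mul, A_comm hb ha, map_mul]
          group
        have c2 := hW.cm v (by omega) u (by omega) b0
        rw [if_pos rfl] at c2
        calc y * (w v * t * (w v)⁻¹) * y⁻¹
            = y * w v * y⁻¹ * (y * t * y⁻¹) * (y * w v * y⁻¹)⁻¹ := by group
          _ = w v * (ι b * (t * w u * ι a)) * (ι b)⁻¹ * (w v)⁻¹ := by rw [e, eψ]; group
          _ = w v * t * (w v)⁻¹ * (w v * w u) * (ι a * (w v)⁻¹) := by rw [c1]; group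
          _ = t * ι (g v) * (ι (sg v u) * w u) * (w v * ι a) * (w v)⁻¹ := by
            rw [hW.tr v (by omega), c2]; group
          _ = _ := by rw [wvA a ha]; group
      apply hσ
      apply h.inj
      have c3 : t * w u * ι a * ι (g v) = t * ι (g v) * (1 * w u) * ι a := by
        rw [mul_assoc, ← map_mul, A_comm ha (g_mem_A hv), map_mul, one_mul, mul_assoc t (ι (g v)),
          ← wuA _ (g_mem_A hv)]
        group
      rw [e4, c3] at e5
      rw [map_one]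
      exact (mul_right_cancel (mul_left_cancel (mul_right_cancel e5))).symm
    subst h0
    rw [hW.w0, mul_one] at e
    have hm : t * y ∈ MW ι w := (hK.nh y (HA y yH) ⟨a, ha, e⟩).resolve_left fun hm => yC (MC hm)
    obtain ⟨u', hu', a', ha', e'⟩ := hK.inv _ hm (by rw [h.ttx, yy])
    obtain ⟨m, hm', em⟩ := hK.zc u' hu' a' ha'
    have ey : m * (t * w u') * m⁻¹ = y := by rw [em, mul_assoc, ← e', h.ttx]
    obtain ⟨τ, hτ, eτ⟩ := cls u' hu' (hty.trans (isConj_iff.mpr ⟨m, ey⟩).symm)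
    exact ⟨m * τ, mul_mem (MT hm') hτ, by rw [← ey, ← eτ]; group⟩
  intro c hc htc
  obtain ⟨x, hx, e⟩ := syl (fun n hn => (mT.mp hn).1) p2 tT h.tt cT fus
    (mH.mpr (Or.inr (by rw [h.ttx]; exact hc))) htc
  rcases mH.mp hx with hx | hx
  · exact ⟨x, hx, e⟩
  · refine ⟨x * t, ?_, by rw [← e]; group⟩
    have := tC _ hx
    rwa [h.ttx] at this

end Cfsg.Agent.H12.S6E
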